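import Mathlib
import Cfsg.Agent.Lib.Char.Basic
import Cfsg.Agent.Lib.Char.Ortho
import Cfsg.Agent.Lib.Char.Induced
import Cfsg.Agent.Lib.Char.IndRep
import Cfsg.Agent.Lib.Char.Values
import Cfsg.Agent.Lib.Char.Clifford
import Cfsg.Agent.Lib.Char.Complete
import Cfsg.Agent.Lib.Char.CompleteCor
import Cfsg.Agent.Lib.Char.Gallagher
import Cfsg.Agent.Lib.Char.DegreeDvd
import Cfsg.Agent.Lib.Char.ItoMichler
import Cfsg.Agent.Lib.Char.CliffordCorr

/-!
# Bounded character degrees: the basic tools

`DegLE G b`: all irreducible degrees of `G` are at most `b`.  The restriction and quotient lemmas,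
extension of characters of top degree, and vanishing off the normal core.
-/

set_option autoImplicit false

namespace Cfsg.Agent.Lib.Blocks.IPass

open Cfsg Cfsg.Agent.Lib.Char.Basic Cfsg.Agent.Lib.Char.Ortho Cfsg.Agent.Lib.Char.Induced
  Cfsg.Agent.Lib.Char.IndRep Cfsg.Agent.Lib.Char.Clifford Cfsg.Agent.Lib.Char.CliffordCorr
open scoped ComplexConjugate

universe u

/-- All irreducible character degrees of `G` are at most `b`. -/
def DegLE (G : Type u) [Group G] (b : ℕ) : Prop :=
  ∀ χ : G → ℂ, IsIrrCharacter G χ → ∀ n : ℕ, χ 1 = n → n ≤ b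

variable {G : Type u} [Group G]

theorem DegLE.mono {b c : ℕ} (h : DegLE G b) (hbc : b ≤ c) : DegLE G c :=
  fun χ hχ n hn => (h χ hχ n hn).trans hbc

theorem DegLE.quot {b : ℕ} (h : DegLE G b) (N : Subgroup G) [N.Normal] : DegLE (G ⧸ N) b := by
  intro χ hχ n hn
  refine h _ (isIrrCharacter_comp_surjective hχ (QuotientGroup.mk' N)
    (QuotientGroup.mk'_surjective N)) n ?_
  simpa using hn

section Fin

variable [Fintype G]

/-- A constituent of a restriction. -/
theorem exists_over (H : Subgroup G) [Fintype H] {θ : H → ℂ} (hθ : IsIrrCharacter H θ) :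
    ∃ χ : G → ℂ, IsIrrCharacter G χ ∧ classInner (fun n : H => χ n) θ ≠ 0 := by
  classical
  have hθc := isCharacter_of_isIrrCharacter hθ
  have h1 : indFun H θ 1 ≠ 0 := by
    rw [indFun_one]
    refine mul_ne_zero ?_ (irr_apply_one_ne_zero hθ)
    exact_mod_cast (Subgroup.index_ne_zero_of_finite (H := H))
  obtain ⟨χ, hχ, hne⟩ := exists_irr_constituent (isCharacter_indFun H hθc) h1
  refine ⟨χ, hχ, ?_⟩
  rw [frobenius_reciprocity H θ χ
    (isClassFunction_of_isCharacter (isCharacter_of_isIrrCharacter hχ))] at hne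
  intro h0
  apply hne
  rw [← classInner_conj_symm, h0]
  simp

/-- Degree comparison for a constituent of a restriction. -/
theorem degree_le_of_over (H : Subgroup G) [Fintype H] {χ : G → ℂ} {θ : H → ℂ}
    (hχ : IsCharacter G χ) (hθ : IsIrrCharacter H θ)
    (h : classInner (fun n : H => χ n) θ ≠ 0) {a c : ℕ} (ha : θ 1 = a) (hc : χ 1 = c) :
    a ≤ c ∧ (a = c → ∀ n : H, χ n = θ n) := by
  classical
  obtain ⟨Ξ, hΞ, he⟩ := exists_char_add (isCharacter_restrict hχ H) hθ h
  obtain ⟨d, hd⟩ := exists_nat_apply_one hΞ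
  have h1 := congrFun he 1
  have h2 : (c : ℂ) = a + d := by
    have : ((1 : H) : G) = 1 := rfl
    simp only [Pi.add_apply, this, ha, hd, hc] at h1
    exact h1
  have h3 : c = a + d := by exact_mod_cast h2
  refine ⟨by omega, fun hac => ?_⟩
  have hd0 : d = 0 := by omega
  have hΞ0 := eq_zero_of_apply_one_eq_zero hΞ (by rw [hd, hd0]; simp)
  intro n
  have := congrFun he n
  rw [hΞ0] at this
  simpa using this

theorem DegLE.res {b : ℕ} (h : DegLE G b) (H : Subgroup G) : DegLE H b := by
  intro θ hθ n hn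
  classical
  have := Fintype.ofFinite H
  obtain ⟨χ, hχ, hne⟩ := exists_over H hθ
  obtain ⟨c, -, hc⟩ := irr_degree_pos hχ
  exact (degree_le_of_over H (isCharacter_of_isIrrCharacter hχ) hθ hne hn hc).1.trans (h χ hχ c hc)

/-- A character of top degree of a subgroup extends. -/
theorem exists_ext_top {b : ℕ} (h : DegLE G b) (H : Subgroup G) [Fintype H] {θ : H → ℂ}
    (hθ : IsIrrCharacter H θ) (hb : θ 1 = b) :
    ∃ χ : G → ℂ, IsIrrCharacter G χ ∧ χ 1 = b ∧ ∀ n : H, χ n = θ n := by
  classical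
  obtain ⟨χ, hχ, hne⟩ := exists_over H hθ
  obtain ⟨c, -, hc⟩ := irr_degree_pos hχ
  have h1 := degree_le_of_over H (isCharacter_of_isIrrCharacter hχ) hθ hne hb hc
  have h2 := h χ hχ c hc
  have h3 : b = c := le_antisymm h1.1 h2
  refine ⟨χ, hχ, ?_, h1.2 h3⟩
  rw [hc, h3]

/-- If `χ` is of top degree, and `ψ` is irreducible with `ψ_H` containing `χ_H` irreducible, then
`ψ_H = χ_H`. -/
theorem indFun_top_apply {b : ℕ} (h : DegLE G b) (H : Subgroup G) [Fintype H] {χ : G → ℂ}
    (hχ : IsIrrCharacter G χ) (hb : χ 1 = b) (hH : IsIrrCharacter H (fun n : H => χ n))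
    (x : H) : ∃ m : ℕ, (∀ y : H, indFun H (fun n : H => χ n) y = m * χ y) ∧
      indFun H (fun n : H => χ n) 1 = m * χ 1 := by
  classical
  have := Fintype.ofFinite (IrrCharacter G)
  set θ : H → ℂ := fun n : H => χ n with hθ
  have hθ1 : θ 1 = b := by simpa [hθ] using hb
  have hcl := indFun_isClassFunction H θ
  have hsum := Cfsg.Agent.Lib.Char.Complete.eq_sum_classInner (indFun H θ) hcl
  -- the set of extensions
  let E : Finset (IrrCharacter G) := Finset.univ.filter (fun ψ => ∀ n : H, (ψ : G → ℂ) n = θ n)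
  have hcoef : ∀ ψ : IrrCharacter G, classInner (indFun H θ) (ψ : G → ℂ) =
      if ψ ∈ E then 1 else 0 := by
    intro ψ
    rw [frobenius_reciprocity H θ ψ
      (isClassFunction_of_isCharacter (isCharacter_of_isIrrCharacter ψ.2))]
    split_ifs with hψ
    · have : (fun h : H => (ψ : G → ℂ) h) = θ := by
        funext n
        exact (Finset.mem_filter.1 hψ).2 n
      rw [this]
      exact classInner_irr_self hH
    · by_contra hne
      apply hψ
      refine Finset.mem_filter.2 ⟨Finset.mem_univ _, ?_⟩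
      have hne' : classInner (fun n : H => (ψ : G → ℂ) n) θ ≠ 0 := by
        intro h0
        apply hne
        rw [← classInner_conj_symm, h0]
        simp
      obtain ⟨c, -, hc⟩ := irr_degree_pos ψ.2
      have h1 := degree_le_of_over H (isCharacter_of_isIrrCharacter ψ.2) hH hne' hθ1 hc
      have h2 := h _ ψ.2 c hc
      exact h1.2 (le_antisymm h1.1 h2)
  have key : ∀ y : G, (∀ ψ ∈ E, (ψ : G → ℂ) y = χ y) → indFun H θ y = E.card * χ y := by
    intro y hy
    have h1 := congrFun hsum y
    rw [h1, Finset.sum_apply]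
    simp only [Pi.smul_apply, smul_eq_mul, hcoef, ite_mul, one_mul, zero_mul]
    rw [Finset.sum_ite_mem, Finset.univ_inter, Finset.sum_congr rfl hy]
    simp
  refine ⟨E.card, fun y => key y fun ψ hψ => (Finset.mem_filter.1 hψ).2 y,
    key 1 fun ψ hψ => (Finset.mem_filter.1 hψ).2 1⟩

/-- **Vanishing off the core.**  If `χ` has top degree and restricts irreducibly to `H`, then `χ`
vanishes on `H` outside the normal core of `H`. -/
theorem conj_mem_of_ne_zero {b : ℕ} (h : DegLE G b) (H : Subgroup G) [Fintype H] {χ : G → ℂ}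
    (hχ : IsIrrCharacter G χ) (hb : χ 1 = b) (hH : IsIrrCharacter H (fun n : H => χ n))
    (y : H) (hy : χ y ≠ 0) (x : G) : x⁻¹ * (y : G) * x ∈ H := by
  classical
  obtain ⟨m, h1, h2⟩ := indFun_top_apply h H hχ hb hH y
  set θ : H → ℂ := fun n : H => χ n with hθ
  have hχ1 : χ 1 ≠ 0 := irr_apply_one_ne_zero hχ
  have hcl : IsClassFunction G χ := isClassFunction_of_isCharacter (isCharacter_of_isIrrCharacter hχ)
  have hθ1 : θ 1 = χ 1 := rfl
  -- `m` is the index
  have hm : (m : ℂ) = H.index := by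
    have := indFun_one H θ
    rw [hθ1, h2] at this
    exact mul_right_cancel₀ hχ1 this
  -- the count
  have hcount : ∑ x : G, extendByZero H θ (x⁻¹ * (y : G) * x) =
      (((Finset.univ.filter (fun x : G => x⁻¹ * (y : G) * x ∈ H)).card : ℕ) : ℂ) * χ y := by
    rw [← nsmul_eq_mul, ← Finset.sum_const, ← Finset.sum_filter_add_sum_filter_not Finset.univ
      (fun x : G => x⁻¹ * (y : G) * x ∈ H)]
    have h3 : ∀ x ∈ Finset.univ.filter (fun x : G => ¬ x⁻¹ * (y : G) * x ∈ H),
        extendByZero H θ (x⁻¹ * (y : G) * x) = 0 := fun x hx =>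
      extendByZero_of_notMem H θ (Finset.mem_filter.1 hx).2
    rw [Finset.sum_eq_zero h3, add_zero]
    refine Finset.sum_congr rfl fun x hx => ?_
    rw [extendByZero_of_mem H θ (Finset.mem_filter.1 hx).2]
    have := hcl (y : G) x⁻¹
    simpa [hθ] using this
  have h4 := h1 y
  rw [indFun_apply, hcount, hm] at h4
  have hH0 : (Nat.card H : ℂ) ≠ 0 := natCard_ne_zero_complex
  have h5 : (((Finset.univ.filter (fun x : G => x⁻¹ * (y : G) * x ∈ H)).card : ℕ) : ℂ) =
      (H.index : ℂ) * Nat.card H := by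
    have h6 : (Nat.card H : ℂ)⁻¹ * ((((Finset.univ.filter
        (fun x : G => x⁻¹ * (y : G) * x ∈ H)).card : ℕ) : ℂ) * χ y) =
        ((Nat.card H : ℂ)⁻¹ * (((Finset.univ.filter
        (fun x : G => x⁻¹ * (y : G) * x ∈ H)).card : ℕ) : ℂ)) * χ y := by ring
    rw [h6] at h4
    have h7 := mul_right_cancel₀ hy h4
    field_simp at h7
    rw [h7]
    ring
  have h8 : (Finset.univ.filter (fun x : G => x⁻¹ * (y : G) * x ∈ H)).card = H.index * Nat.card H := by
    exact_mod_cast h5
  rw [Subgroup.index_mul_card, Nat.card_eq_fintype_card] at h8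
  have h9 := (Finset.filter_eq_self (s := Finset.univ)).1 (Finset.eq_univ_of_card _ h8)
  exact h9 x (Finset.mem_univ x)

end Fin

end Cfsg.Agent.Lib.Blocks.IPass
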