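import Mathlib
import Cfsg.Agent.Lib.Blocks.IPass.Basic
import Cfsg.Agent.Lib.Char.MackeyNormal
import Cfsg.Agent.Lib.Char.LinearChars

/-!
# Norm computations for characters of top degree
-/

set_option autoImplicit false

namespace Cfsg.Agent.Lib.Blocks.IPass

open Cfsg Cfsg.Agent.Lib.Char.Basic Cfsg.Agent.Lib.Char.Ortho Cfsg.Agent.Lib.Char.Induced
  Cfsg.Agent.Lib.Char.IndRep Cfsg.Agent.Lib.Char.Clifford Cfsg.Agent.Lib.Char.CliffordCorr
  Cfsg.Agent.Lib.Char.MackeyNormal
open scoped ComplexConjugate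

universe u

variable {G : Type u} [Group G] [Fintype G]

open Classical in
theorem sum_subgroup (H : Subgroup G) [Fintype H] (F : G → ℝ) :
    ∑ x : H, F x = ∑ g : G, if g ∈ H then F g else 0 := by
  classical
  rw [← Finset.sum_filter]
  symm
  exact Finset.sum_subtype (Finset.univ.filter (· ∈ H)) (by simp) F

theorem sum_norm_of_vanish {L H : Subgroup G} [Fintype L] [Fintype H] (hLH : L ≤ H) {χ : G → ℂ}
    (hv : ∀ x ∈ H, x ∉ L → χ x = 0) :
    ∑ x : H, ‖χ x‖ ^ 2 = ∑ x : L, ‖χ x‖ ^ 2 := by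
  rw [sum_subgroup H (fun g => ‖χ g‖ ^ 2), sum_subgroup L (fun g => ‖χ g‖ ^ 2)]
  refine Finset.sum_congr rfl fun g _ => ?_
  by_cases hg : g ∈ L
  · rw [if_pos hg, if_pos (hLH hg)]
  · rw [if_neg hg]
    split_ifs with hH
    · simp [hv g hH hg]
    · rfl

/-- Restriction to a smaller subgroup containing the support is not irreducible. -/
theorem not_irr_of_vanish {L H₁ H₂ : Subgroup G} [Fintype L] [Fintype H₁] [Fintype H₂]
    (hL1 : L ≤ H₁) (h12 : H₁ ≤ H₂) (hne : H₁ ≠ H₂) {χ : G → ℂ}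
    (h2 : IsIrrCharacter H₂ (fun x : H₂ => χ x)) (hv : ∀ x ∈ H₂, x ∉ L → χ x = 0) :
    ¬ IsIrrCharacter H₁ (fun x : H₁ => χ x) := by
  intro h1
  have e2 := sum_norm_sq_eq_card h2
  have e1 := sum_norm_sq_eq_card h1
  rw [sum_norm_of_vanish (hL1.trans h12) hv] at e2
  rw [sum_norm_of_vanish hL1 (fun x hx hxL => hv x (h12 hx) hxL)] at e1
  rw [e1] at e2
  have e3 : Nat.card H₁ = Nat.card H₂ := by exact_mod_cast e2
  exact hne (Subgroup.eq_of_le_of_card_ge h12 (le_of_eq e3.symm))

/-- Degree bound from the absence of top characters. -/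
theorem degLE_pred {b : ℕ} (h : DegLE G b) (H : Subgroup G)
    (hno : ∀ χ : G → ℂ, IsIrrCharacter G χ → χ 1 = b → ¬ IsIrrCharacter H (fun x : H => χ x)) :
    DegLE H (b - 1) := by
  classical
  have := Fintype.ofFinite H
  intro θ hθ n hn
  have h1 := DegLE.res h H θ hθ n hn
  by_cases h2 : n = b
  · subst h2
    obtain ⟨χ, hχ, hb, hext⟩ := exists_ext_top h H hθ hn
    exfalso
    apply hno χ hχ hb
    have : (fun x : H => χ x) = θ := funext hext
    rw [this]
    exact hθ
  · omega

/-- The order of the subgroup is bounded if a top character vanishes off `L`. -/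
theorem card_le_of_vanish {L H : Subgroup G} [Fintype L] [Fintype H] (hLH : L ≤ H) {χ : G → ℂ}
    {b : ℕ} (hχ : IsCharacter G χ) (hb : χ 1 = b) (hH : IsIrrCharacter H (fun x : H => χ x))
    (hv : ∀ x ∈ H, x ∉ L → χ x = 0) : Nat.card H ≤ Nat.card L * b ^ 2 := by
  have e2 := sum_norm_sq_eq_card hH
  rw [sum_norm_of_vanish hLH hv] at e2
  have h1 : ∑ x : L, ‖χ x‖ ^ 2 ≤ ∑ _x : L, ((b : ℝ) ^ 2) := by
    refine Finset.sum_le_sum fun x _ => ?_
    have h2 := Cfsg.Agent.Lib.Char.Values.IsCharacter.norm_le hχ (x : G)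
    rw [hb] at h2
    simp only [Complex.norm_natCast] at h2
    gcongr
  rw [e2] at h1
  simp only [Finset.sum_const, Finset.card_univ, nsmul_eq_mul, ← Nat.card_eq_fintype_card] at h1
  exact_mod_cast h1

/-- The tensor argument: a fully ramified character kills the top characters on its centre. -/
theorem no_top_of_ramified {b d : ℕ} (h : DegLE G b) (H : Subgroup G) [Fintype H] {Ψ : G → ℂ}
    (hΨ : IsIrrCharacter G Ψ) (hd : Ψ 1 = d) (hd2 : 2 ≤ d) (hv : ∀ g, g ∉ H → Ψ g = 0)
    (hn : ∀ g ∈ H, ‖Ψ g‖ = d) (hidx : d ^ 2 = H.index) {χ : G → ℂ} (hχ : IsIrrCharacter G χ)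
    (hb : χ 1 = b) : ¬ IsIrrCharacter H (fun x : H => χ x) := by
  classical
  intro hH
  have e1 := sum_norm_sq_eq_card hH
  have hξ : IsCharacter G (Ψ * χ) :=
    isCharacter_mul (isCharacter_of_isIrrCharacter hΨ) (isCharacter_of_isIrrCharacter hχ)
  have hnorm : classInner (Ψ * χ) (Ψ * χ) = 1 := by
    rw [classInner_self_eq]
    have h1 : ∑ g : G, ‖(Ψ * χ) g‖ ^ 2 = (d : ℝ) ^ 2 * ∑ x : H, ‖χ x‖ ^ 2 := by
      rw [sum_subgroup H (fun g => ‖χ g‖ ^ 2), Finset.mul_sum]
      refine Finset.sum_congr rfl fun g _ => ?_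
      by_cases hg : g ∈ H
      · rw [if_pos hg, Pi.mul_apply, norm_mul, hn g hg]
        ring
      · rw [if_neg hg, Pi.mul_apply, hv g hg]
        simp
    rw [h1, e1]
    have h2 : (d : ℝ) ^ 2 * (Nat.card H : ℝ) = Nat.card G := by
      have : d ^ 2 * Nat.card H = Nat.card G := by
        rw [hidx, Subgroup.index_mul_card]
      exact_mod_cast this
    rw [h2]
    have h3 : (Nat.card G : ℝ) ≠ 0 := by exact_mod_cast Nat.card_pos.ne'
    rw [inv_mul_cancel₀ h3]
    simp
  have hirr := isIrrCharacter_of_classInner_self_eq_one hξ hnorm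
  have h4 := h _ hirr (d * b) (by simp only [Pi.mul_apply, hd, hb]; push_cast; ring)
  obtain ⟨c, hc0, hc⟩ := irr_degree_pos hχ
  have hbc : b = c := by rw [hb] at hc; exact_mod_cast hc
  have hb0 : 0 < b := by omega
  nlinarith

/-- An irreducible character with trivial inertia group induces irreducibly. -/
theorem index_mul_le {b : ℕ} (h : DegLE G b) (N : Subgroup G) [N.Normal] [Fintype N] {α : N → ℂ}
    (hα : IsIrrCharacter N α) (hs : ∀ g : G, conjFun N g α = α → g ∈ N) {a : ℕ} (ha : α 1 = a) :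
    N.index * a ≤ b := by
  classical
  have hαc := isCharacter_of_isIrrCharacter hα
  have hαcl : IsClassFunction N α := isClassFunction_of_isCharacter hαc
  set ξ := indFun N α with hξ
  have hξc : IsCharacter G ξ := isCharacter_indFun N hαc
  have hterm : ∀ x : G, classInner (conjFun N x⁻¹ α) α = if x ∈ N then 1 else 0 := by
    intro x
    split_ifs with hx
    · have : conjFun N x⁻¹ α = α := by
        funext n
        rw [conjFun_apply]
        have h1 := hαcl n ⟨x⁻¹, N.inv_mem hx⟩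
        exact h1
      rw [this]
      exact classInner_irr_self hα
    · refine classInner_irr_of_ne (isIrr_conjFun N _ hα) hα fun h1 => hx ?_
      have := hs _ h1
      simpa using this
  have hnorm : classInner ξ ξ = 1 := by
    rw [hξ, frobenius_reciprocity N α _ (indFun_isClassFunction N α), ← classInner_conj_symm,
      classInner_indFun_res]
    simp only [hterm]
    rw [Finset.sum_boole]
    have h1 : (Finset.univ.filter (· ∈ N)).card = Nat.card N := by
      rw [Nat.card_eq_fintype_card, Fintype.card_subtype]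
    rw [h1]
    have h2 : (Nat.card N : ℂ) ≠ 0 := by exact_mod_cast Nat.card_pos.ne'
    rw [inv_mul_cancel₀ h2]
    simp
  have hirr := isIrrCharacter_of_classInner_self_eq_one hξc hnorm
  refine h ξ hirr _ ?_
  rw [hξ, indFun_one, ha]
  push_cast
  ring

end Cfsg.Agent.Lib.Blocks.IPass
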