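import Mathlib
import Cfsg.Agent.Lib.Blocks.IPass.Tools
import Cfsg.Agent.Lib.Char.Integrality

/-!
# Groups whose commutator subgroup is the unique minimal normal subgroup
-/

set_option autoImplicit false

namespace Cfsg.Agent.Lib.Blocks.IPass

open Cfsg Cfsg.Agent.Lib.Char.Basic Cfsg.Agent.Lib.Char.Ortho Cfsg.Agent.Lib.Char.Induced
  Cfsg.Agent.Lib.Char.IndRep Cfsg.Agent.Lib.Char.Clifford Cfsg.Agent.Lib.Char.CliffordCorr
  Cfsg.Agent.Lib.Char.MackeyNormal
open scoped ComplexConjugate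

universe u

/-- The commutator subgroup is the unique minimal normal subgroup. -/
structure Mono (Q : Type u) [Group Q] : Prop where
  ne : commutator Q ≠ ⊥
  le : ∀ N : Subgroup Q, N.Normal → N ≠ ⊥ → commutator Q ≤ N

variable {Q : Type u} [Group Q]

theorem mem_cent {x g : Q} : x ∈ Subgroup.centralizer ({g} : Set Q) ↔ x * g = g * x :=
  Subgroup.mem_centralizer_singleton_iff

theorem commElt_mem (x y : Q) : x * y * x⁻¹ * y⁻¹ ∈ commutator Q := by
  rw [commutator_def]
  exact Subgroup.commutator_mem_commutator (Subgroup.mem_top x) (Subgroup.mem_top y)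

/-- The conjugation-closure argument: a central-like subgroup. -/
theorem normal_inf_centralizer {C : Subgroup Q} [hC : C.Normal] (g : Q)
    (hC' : ∀ c ∈ C, ∀ d ∈ commutator Q, c * d = d * c) :
    (C ⊓ Subgroup.centralizer ({g} : Set Q)).Normal := by
  constructor
  intro x hx h
  obtain ⟨hx1, hx2⟩ := Subgroup.mem_inf.1 hx
  refine Subgroup.mem_inf.2 ⟨hC.conj_mem x hx1 h, ?_⟩
  rw [mem_cent] at hx2 ⊢
  -- `u = g⁻¹ h⁻¹ g h`
  have hu : g⁻¹ * h⁻¹ * g⁻¹⁻¹ * h⁻¹⁻¹ ∈ commutator Q := commElt_mem _ _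
  have h1 := hC' x hx1 _ hu
  simp only [inv_inv] at h1
  -- `x` commutes with `g` and `u`, so with `h⁻¹ g h`
  have h2 : x * (h⁻¹ * g * h) = (h⁻¹ * g * h) * x := by
    have e : h⁻¹ * g * h = g * (g⁻¹ * h⁻¹ * g * h) := by group
    rw [e, ← mul_assoc, hx2, mul_assoc, h1, ← mul_assoc]
  calc h * x * h⁻¹ * g = h * (x * (h⁻¹ * g * h)) * h⁻¹ := by group
    _ = h * ((h⁻¹ * g * h) * x) * h⁻¹ := by rw [h2]
    _ = g * (h * x * h⁻¹) := by group

section Frob

variable [Finite Q] (hQ : Mono Q) (hab : ∀ x ∈ commutator Q, ∀ y ∈ commutator Q, x * y = y * x)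
  (hnc : ¬ commutator Q ≤ Subgroup.center Q)
include hQ hab

/-- If `g` does not centralize `D` then `C_D(g) = 1`. -/
theorem Mono.fix_of_not_cent {g : Q} (hg : ¬ ∀ d ∈ commutator Q, g * d = d * g) {d : Q}
    (hd : d ∈ commutator Q) (hfix : g * d * g⁻¹ = d) : d = 1 := by
  have hn := normal_inf_centralizer (C := commutator Q) g hab
  by_contra hne
  have h0 : commutator Q ⊓ Subgroup.centralizer ({g} : Set Q) ≠ ⊥ := by
    intro h
    have : d ∈ commutator Q ⊓ Subgroup.centralizer ({g} : Set Q) := by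
      refine Subgroup.mem_inf.2 ⟨hd, ?_⟩
      rw [mem_cent]
      have h1 : g * d = d * g := by
        calc g * d = g * d * g⁻¹ * g := by group
          _ = d * g := by rw [hfix]
      exact h1.symm
    rw [h] at this
    exact hne ((Subgroup.mem_bot).1 this)
  apply hg
  intro e he
  have h1 := (Subgroup.mem_inf.1 (hQ.le _ hn h0 he)).2
  rw [mem_cent] at h1
  exact h1.symm

/-- The commutator map by `g`. -/
theorem Mono.surj_comm {g : Q} (hg : ¬ ∀ d ∈ commutator Q, g * d = d * g) {w : Q}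
    (hw : w ∈ commutator Q) : ∃ d ∈ commutator Q, d * g * d⁻¹ * g⁻¹ = w := by
  have hDn : (commutator Q).Normal := inferInstance
  let φ : commutator Q → commutator Q := fun d =>
    ⟨d * g * (d : Q)⁻¹ * g⁻¹, commElt_mem _ _⟩
  have hinj : Function.Injective φ := by
    intro a b h
    have h1 : (a : Q) * g * (a : Q)⁻¹ * g⁻¹ = b * g * (b : Q)⁻¹ * g⁻¹ := congrArg Subtype.val h
    have hc : (b : Q)⁻¹ * a ∈ commutator Q := (commutator Q).mul_mem ((commutator Q).inv_mem b.2) a.2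
    have hfix : g * ((b : Q)⁻¹ * a) * g⁻¹ = (b : Q)⁻¹ * a := by
      have hm : g * (a : Q)⁻¹ * g⁻¹ ∈ commutator Q := hDn.conj_mem _ ((commutator Q).inv_mem a.2) g
      have hm' : g * (b : Q)⁻¹ * g⁻¹ ∈ commutator Q :=
        hDn.conj_mem _ ((commutator Q).inv_mem b.2) g
      -- `a · (g a⁻¹ g⁻¹) = b · (g b⁻¹ g⁻¹)`
      have h2 : (a : Q) * (g * (a : Q)⁻¹ * g⁻¹) = b * (g * (b : Q)⁻¹ * g⁻¹) := by
        simpa [mul_assoc] using h1
      have h3 : (b : Q)⁻¹ * a = (g * (b : Q)⁻¹ * g⁻¹) * (g * (a : Q)⁻¹ * g⁻¹)⁻¹ := by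
        have : (b : Q)⁻¹ * (a * (g * (a : Q)⁻¹ * g⁻¹)) * (g * (a : Q)⁻¹ * g⁻¹)⁻¹ =
            (b : Q)⁻¹ * (b * (g * (b : Q)⁻¹ * g⁻¹)) * (g * (a : Q)⁻¹ * g⁻¹)⁻¹ := by rw [h2]
        simpa [mul_assoc] using this
      have h4 : g * ((b : Q)⁻¹ * a) * g⁻¹ = (g * (b : Q)⁻¹ * g⁻¹) * (g * a * g⁻¹) := by group
      rw [h4, h3]
      have h5 := hab _ hm' _ ((commutator Q).inv_mem hm)
      have h6 : (g * (a : Q)⁻¹ * g⁻¹)⁻¹ = g * a * g⁻¹ := by group
      rw [h6]
    have h7 := hQ.fix_of_not_cent hab hg hc hfix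
    apply Subtype.ext
    have : (b : Q)⁻¹ * a = 1 := h7
    exact (inv_mul_eq_one.1 this).symm
  have hsurj : Function.Surjective φ := Finite.surjective_of_injective hinj
  obtain ⟨d, hd⟩ := hsurj ⟨w, hw⟩
  exact ⟨d, d.2, congrArg Subtype.val hd⟩

include hnc

/-- `C_Q(D) = D`. -/
theorem Mono.centralizer_le {c : Q} (hc : ∀ d ∈ commutator Q, c * d = d * c) : c ∈ commutator Q := by
  obtain ⟨g₀, hg₀⟩ : ∃ g₀ : Q, ¬ ∀ d ∈ commutator Q, g₀ * d = d * g₀ := by
    by_contra hcon
    push Not at hcon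
    apply hnc
    intro d hd
    rw [Subgroup.mem_center_iff]
    intro g
    exact hcon g d hd
  obtain ⟨d, hd, hdw⟩ := hQ.surj_comm hab hg₀ (commElt_mem c g₀)
  -- the centralizer of `D` is normal
  let C : Subgroup Q := Subgroup.centralizer (commutator Q : Set Q)
  have hCn : C.Normal := by
    have hDn : (commutator Q).Normal := inferInstance
    exact Subgroup.normal_centralizer
  have hCD : ∀ x ∈ C, ∀ y ∈ commutator Q, x * y = y * x := by
    intro x hx y hy
    exact ((Subgroup.mem_centralizer_iff.1 hx) y hy).symm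
  have hn := normal_inf_centralizer (C := C) g₀ hCD
  by_contra hnot
  set r := d⁻¹ * c with hr
  have hdC : d ∈ C := Subgroup.mem_centralizer_iff.2 fun y hy => hab y hy d hd
  have hcC : c ∈ C := Subgroup.mem_centralizer_iff.2 fun y hy => (hc y hy).symm
  have hrC : r ∈ C := C.mul_mem (C.inv_mem hdC) hcC
  have hrc : r * g₀ = g₀ * r := by
    have h1 : c * g₀ * c⁻¹ * g₀⁻¹ = d * g₀ * d⁻¹ * g₀⁻¹ := hdw.symm
    have h2 : c * g₀ * c⁻¹ = d * g₀ * d⁻¹ := by simpa using congrArg (· * g₀) h1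
    calc r * g₀ = d⁻¹ * (c * g₀ * c⁻¹) * c := by rw [hr]; group
      _ = d⁻¹ * (d * g₀ * d⁻¹) * c := by rw [h2]
      _ = g₀ * r := by rw [hr]; group
  have hrmem : r ∈ C ⊓ Subgroup.centralizer ({g₀} : Set Q) := by
    refine Subgroup.mem_inf.2 ⟨hrC, ?_⟩
    rw [mem_cent]
    exact hrc
  have hr1 : r ≠ 1 := by
    intro h1
    apply hnot
    have : c = d := by
      have := (inv_mul_eq_one.1 (show d⁻¹ * c = 1 from h1))
      exact this.symm
    rw [this]
    exact hd
  have hne : C ⊓ Subgroup.centralizer ({g₀} : Set Q) ≠ ⊥ := by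
    intro h
    rw [h] at hrmem
    exact hr1 (Subgroup.mem_bot.1 hrmem)
  have hDle := hQ.le _ hn hne
  -- `D` has no fixed points under `g₀`
  have hbot : commutator Q = ⊥ := by
    rw [eq_bot_iff]
    intro e he
    have h1 := (Subgroup.mem_inf.1 (hDle he)).2
    rw [mem_cent] at h1
    have h2 : g₀ * e * g₀⁻¹ = e := by
      rw [← h1]
      group
    exact Subgroup.mem_bot.2 (hQ.fix_of_not_cent hab hg₀ he h2)
  exact hQ.ne hbot

/-- `C_D(g) = 1` for `g ∉ D`. -/
theorem Mono.fix_trivial {g : Q} (hg : g ∉ commutator Q) {d : Q} (hd : d ∈ commutator Q)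
    (hfix : g * d * g⁻¹ = d) : d = 1 :=
  hQ.fix_of_not_cent hab (fun h => hg (hQ.centralizer_le hab hnc h)) hd hfix

/-- A homomorphism on `D` invariant under `g ∉ D` is trivial. -/
theorem Mono.hom_trivial {g : Q} (hg : g ∉ commutator Q) (l : commutator Q →* ℂˣ)
    (hinv : ∀ d : commutator Q, l ⟨g * d * g⁻¹, (inferInstance : (commutator Q).Normal).conj_mem d d.2 g⟩ = l d) :
    l = 1 := by
  ext d
  obtain ⟨x, hx, hxd⟩ := hQ.surj_comm hab (fun h => hg (hQ.centralizer_le hab hnc h)) d.2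
  have hDn : (commutator Q).Normal := inferInstance
  have h1 := hinv ⟨x⁻¹, (commutator Q).inv_mem hx⟩
  have h2 : d = (⟨x, hx⟩ : commutator Q) * (⟨g * (x⁻¹ : Q) * g⁻¹, hDn.conj_mem _ ((commutator Q).inv_mem hx) g⟩ : commutator Q) := by
    apply Subtype.ext
    rw [← hxd]
    simp only [Subgroup.coe_mul]
    group
  rw [h2, map_mul]
  have h3 : l ⟨g * (x⁻¹ : Q) * g⁻¹, hDn.conj_mem _ ((commutator Q).inv_mem hx) g⟩ =
      l ⟨x⁻¹, (commutator Q).inv_mem hx⟩ := h1
  rw [h3]
  have h4 : (⟨x⁻¹, (commutator Q).inv_mem hx⟩ : commutator Q) = (⟨x, hx⟩ : commutator Q)⁻¹ := rfl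
  rw [h4, map_inv, mul_inv_cancel]
  simp

/-- The prime structure of `D` (`D` abelian). -/
theorem Mono.prime_structure :
    ∃ q : ℕ, q.Prime ∧ (∀ e : ℕ, e ∣ Nat.card (commutator Q) → e ≠ 1 → q ≤ e) ∧
      ∃ H : Subgroup Q, H ≤ commutator Q ∧ H ≠ commutator Q ∧ Nat.card (commutator Q) = q * Nat.card H := by
  classical
  have hDn : (commutator Q).Normal := inferInstance
  have hnt : Nontrivial (commutator Q) := by
    rw [Subgroup.nontrivial_iff_ne_bot]
    exact hQ.ne
  have hc1 : Nat.card (commutator Q) ≠ 1 := fun h => by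
    have := (Finite.one_lt_card (α := commutator Q))
    omega
  set q := (Nat.card (commutator Q)).minFac with hq
  have hqp : q.Prime := Nat.minFac_prime hc1
  haveI : Fact q.Prime := ⟨hqp⟩
  have hqd : q ∣ Nat.card (commutator Q) := Nat.minFac_dvd _
  -- `D` has exponent `q`
  let T : Subgroup Q :=
    { carrier := {d | d ∈ commutator Q ∧ d ^ q = 1}
      mul_mem' := by
        rintro a b ⟨ha, ha'⟩ ⟨hb, hb'⟩
        refine ⟨(commutator Q).mul_mem ha hb, ?_⟩
        have hcomm : Commute a b := hab a ha b hb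
        rw [hcomm.mul_pow, ha', hb', one_mul]
      one_mem' := ⟨(commutator Q).one_mem, one_pow _⟩
      inv_mem' := by
        rintro a ⟨ha, ha'⟩
        exact ⟨(commutator Q).inv_mem ha, by rw [inv_pow, ha', inv_one]⟩ }
  have hTn : T.Normal := by
    constructor
    rintro a ⟨ha, ha'⟩ g
    refine ⟨hDn.conj_mem a ha g, ?_⟩
    rw [conj_pow, ha', mul_one, mul_inv_cancel]
  have hTne : T ≠ ⊥ := by
    obtain ⟨x, hx⟩ := exists_prime_orderOf_dvd_card' (G := commutator Q) q hqd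
    intro h
    have hxT : (x : Q) ∈ T := ⟨x.2, by
      have := pow_orderOf_eq_one x
      rw [hx] at this
      exact_mod_cast congrArg Subtype.val this⟩
    rw [h] at hxT
    have hx1 : x = 1 := Subtype.ext (Subgroup.mem_bot.1 hxT)
    rw [hx1, orderOf_one] at hx
    exact hqp.one_lt.ne hx
  have hDT := hQ.le T hTn hTne
  have hpg : IsPGroup q (commutator Q) := by
    intro x
    refine ⟨1, ?_⟩
    apply Subtype.ext
    simpa using (hDT x.2).2
  obtain ⟨n, hn⟩ := IsPGroup.iff_card.1 hpg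
  have hn0 : n ≠ 0 := by
    rintro rfl
    exact hc1 (by simpa using hn)
  obtain ⟨m, rfl⟩ := Nat.exists_eq_succ_of_ne_zero hn0
  refine ⟨q, hqp, ?_, ?_⟩
  · intro e he he1
    rw [hn] at he
    obtain ⟨k, -, rfl⟩ := (Nat.dvd_prime_pow hqp).1 he
    have hk : k ≠ 0 := by
      rintro rfl
      exact he1 (pow_zero q)
    exact Nat.le_of_dvd (pow_pos hqp.pos k) (dvd_pow_self q hk)
  · obtain ⟨K, hK⟩ := Sylow.exists_subgroup_card_pow_prime (G := commutator Q) q (n := m)
      (by rw [hn]; exact pow_dvd_pow q (Nat.le_succ m))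
    have hcard : Nat.card (K.map (commutator Q).subtype) = q ^ m := by
      rw [← hK]
      exact Nat.card_congr (K.equivMapOfInjective _ (commutator Q).subtype_injective).toEquiv.symm
    refine ⟨K.map (commutator Q).subtype, ?_, ?_, ?_⟩
    · exact Subgroup.map_subtype_le K
    · intro h
      rw [h, hn] at hcard
      have := Nat.pow_right_injective hqp.two_le hcard
      omega
    · rw [hcard, hn, pow_succ]
      ring

end Frob

section Central

variable [Fintype Q] (hQ : Mono Q) (hc : commutator Q ≤ Subgroup.center Q)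
include hQ hc

/-- The central case: a fully ramified character. -/
theorem Mono.central : ∃ (Ψ : Q → ℂ) (d : ℕ), IsIrrCharacter Q Ψ ∧ Ψ 1 = d ∧ 2 ≤ d ∧
    (∀ g, g ∉ Subgroup.center Q → Ψ g = 0) ∧ (∀ g ∈ Subgroup.center Q, ‖Ψ g‖ = d) ∧
    d ^ 2 = (Subgroup.center Q).index := by
  classical
  obtain ⟨⟨z, hz⟩, hz1⟩ := (Subgroup.ne_bot_iff_exists_ne_one).1 hQ.ne
  have hz1' : z ≠ 1 := fun h => hz1 (Subtype.ext h)
  obtain ⟨Ψ, hΨ, hne⟩ : ∃ Ψ : Q → ℂ, IsIrrCharacter Q Ψ ∧ Ψ z ≠ Ψ 1 := by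
    by_contra hcon
    push Not at hcon
    have := Cfsg.Agent.Lib.Char.CompleteCor.isConj_of_forall_irr (g := z) (h := 1)
      (fun χ => hcon χ.1 χ.2)
    exact hz1' (isConj_one_right.1 this.symm)
  obtain ⟨n, ρ, hρ, rfl⟩ := id hΨ
  haveI := hρ
  -- faithful
  have hker : ∀ c : Q, ρ c = 1 → c = 1 := by
    by_contra hcon
    push Not at hcon
    obtain ⟨c, hc1, hc2⟩ := hcon
    have hN : (MonoidHom.ker ρ).Normal := MonoidHom.normal_ker _
    have hcm : c ∈ MonoidHom.ker ρ := hc1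
    have hne' : MonoidHom.ker ρ ≠ ⊥ := fun h => by
      rw [h] at hcm
      exact hc2 (Subgroup.mem_bot.1 hcm)
    have hzk : z ∈ MonoidHom.ker ρ := hQ.le _ hN hne' hz
    have : ρ z = 1 := hzk
    apply hne
    simp [Representation.character, this]
  -- scalars
  have hsc : ∀ c ∈ Subgroup.center Q, ∃ ε : ℂ, ρ c = ε • (LinearMap.id : (Fin n → ℂ) →ₗ[ℂ] _) := by
    intro c hc'
    refine Cfsg.Agent.Lib.Char.Integrality.exists_smul_id_of_commute ρ (ρ c) fun g => ?_
    have h1 := (Subgroup.mem_center_iff.1 hc') g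
    rw [← Module.End.mul_eq_comp, ← Module.End.mul_eq_comp, ← map_mul, ← map_mul, h1]
  have hvan : ∀ g, g ∉ Subgroup.center Q → ρ.character g = 0 := by
    intro g hg
    rw [Subgroup.mem_center_iff] at hg
    push Not at hg
    obtain ⟨y, hy⟩ := hg
    set c := y * g * y⁻¹ * g⁻¹ with hcdef
    have hcc : c ∈ Subgroup.center Q := hc (commElt_mem y g)
    obtain ⟨ε, hε⟩ := hsc c hcc
    have hc1 : c ≠ 1 := by
      intro h1
      apply hy
      have : y * g * y⁻¹ = g := by
        have := congrArg (· * g) h1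
        simpa [hcdef] using this
      calc y * g = y * g * y⁻¹ * y := by group
        _ = g * y := by rw [this]
    have hε1 : ε ≠ 1 := by
      rintro rfl
      apply hc1
      apply hker
      rw [hε, one_smul]
      rfl
    have h2 : ρ.character (y * g * y⁻¹) = ρ.character g := Representation.char_conj ρ g y
    have h3 : y * g * y⁻¹ = c * g := by rw [hcdef]; group
    have h4 : ρ.character (c * g) = ε * ρ.character g := by
      simp only [Representation.character, map_mul, hε]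
      rw [Module.End.mul_eq_comp, LinearMap.smul_comp, LinearMap.id_comp, map_smul, smul_eq_mul]
    rw [h3, h4] at h2
    have h5 : (ε - 1) * ρ.character g = 0 := by
      rw [sub_mul, h2]
      ring
    rcases mul_eq_zero.1 h5 with h6 | h6
    · exact absurd (sub_eq_zero.1 h6) hε1
    · exact h6
  have hnorm : ∀ g ∈ Subgroup.center Q, ‖ρ.character g‖ = n := by
    intro g hg
    obtain ⟨ε, hε⟩ := hsc g hg
    have := (Cfsg.Agent.Lib.Char.Values.norm_character_eq_iff ρ g).2 ⟨ε, hε⟩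
    simpa using this
  have hsum := sum_norm_sq_eq_card hΨ
  have h7 : ∑ x : Q, ‖ρ.character x‖ ^ 2 = ∑ x : Subgroup.center Q, ((n : ℝ) ^ 2) := by
    rw [sum_subgroup (Subgroup.center Q) (fun _ => (n : ℝ) ^ 2)]
    refine Finset.sum_congr rfl fun g _ => ?_
    by_cases hg : g ∈ Subgroup.center Q
    · rw [if_pos hg, hnorm g hg]
    · rw [if_neg hg, hvan g hg]
      simp
  rw [h7] at hsum
  simp only [Finset.sum_const, Finset.card_univ, nsmul_eq_mul, ← Nat.card_eq_fintype_card] at hsum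
  have h8 : Nat.card (Subgroup.center Q) * n ^ 2 = (Subgroup.center Q).index * Nat.card (Subgroup.center Q) := by
    rw [Subgroup.index_mul_card]
    exact_mod_cast hsum
  have h9 : n ^ 2 = (Subgroup.center Q).index := by
    have hpos : 0 < Nat.card (Subgroup.center Q) := Nat.card_pos
    nlinarith [Nat.eq_of_mul_eq_mul_left hpos (by rw [h8, mul_comm] :
      Nat.card (Subgroup.center Q) * n ^ 2 = Nat.card (Subgroup.center Q) * (Subgroup.center Q).index)]
  refine ⟨ρ.character, n, hΨ, by simp, ?_, hvan, hnorm, h9⟩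
  by_contra hn2
  have hn1 : n ≤ 1 := by omega
  have hi : (Subgroup.center Q).index ≤ 1 := by
    rw [← h9]
    nlinarith
  have hi0 : (Subgroup.center Q).index ≠ 0 := Subgroup.index_ne_zero_of_finite
  have hi1 : (Subgroup.center Q).index = 1 := by omega
  rw [Subgroup.index_eq_one] at hi1
  exact hQ.ne ((commutator_eq_bot_iff_center_eq_top Q).2 hi1)

end Central

end Cfsg.Agent.Lib.Blocks.IPass
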