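import Mathlib
import Cfsg.Agent.Lib.Blocks.IPass.Mono
import Cfsg.Agent.Lib.Char.Burnside2
import Cfsg.Agent.Lib.Char.GlaubOver

/-!
# A nonabelian simple group has an irreducible character of degree at least five
-/

set_option autoImplicit false

namespace Cfsg.Agent.Lib.Blocks.IPass

open Cfsg Cfsg.Agent.Lib.Char.Basic Cfsg.Agent.Lib.Char.Ortho Cfsg.Agent.Lib.Char.Induced
  Cfsg.Agent.Lib.Char.IndRep Cfsg.Agent.Lib.Char.Clifford Cfsg.Agent.Lib.Char.CliffordCorr
  Cfsg.Agent.Lib.Char.MackeyNormal
open scoped ComplexConjugate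

universe u

section
variable {S : Type u} [Group S] [Finite S] [IsSimpleGroup S]

/-- In a nonabelian simple group a homomorphism into an abelian monoid is trivial. -/
theorem det_eq_one (hna : ¬ ∀ a b : S, a * b = b * a) {n : ℕ} (ρ : Representation ℂ S (Fin n → ℂ))
    (g : S) : LinearMap.det (ρ g) = 1 := by
  classical
  let f : S →* ℂ := (LinearMap.det : ((Fin n → ℂ) →ₗ[ℂ] (Fin n → ℂ)) →* ℂ).comp ρ
  let φ : S →* ℂˣ := f.toHomUnits
  have hφ : ∀ x, ((φ x : ℂˣ) : ℂ) = f x := fun x => MonoidHom.coe_toHomUnits f x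
  have hk : (MonoidHom.ker φ) = ⊤ := by
    rcases (MonoidHom.normal_ker φ).eq_bot_or_eq_top with h | h
    · exfalso
      apply hna
      intro a b
      have hinj : Function.Injective φ := (MonoidHom.ker_eq_bot_iff φ).1 h
      apply hinj
      rw [map_mul, map_mul, mul_comm]
    · exact h
  have h1 : g ∈ MonoidHom.ker φ := by rw [hk]; trivial
  have h2 : φ g = 1 := h1
  have h3 := hφ g
  rw [h2] at h3
  exact h3.symm

/-- A representation is faithful or trivial. -/
theorem ker_dichotomy {n : ℕ} (ρ : Representation ℂ S (Fin n → ℂ)) :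
    (∀ g, ρ g = 1 → g = 1) ∨ ∀ g, ρ g = 1 := by
  rcases (MonoidHom.normal_ker ρ).eq_bot_or_eq_top with h | h
  · left
    intro g hg
    have : g ∈ MonoidHom.ker ρ := hg
    rw [h] at this
    exact Subgroup.mem_bot.1 this
  · right
    intro g
    have : g ∈ MonoidHom.ker ρ := by rw [h]; trivial
    exact this

/-- The determinant of a diagonal operator. -/
theorem det_eq_prod_of_diag {V : Type*} [AddCommGroup V] [Module ℂ V] [FiniteDimensional ℂ V]
    {ι : Type*} [Fintype ι] [DecidableEq ι] (b : Module.Basis ι ℂ V) (A : V →ₗ[ℂ] V) (μ : ι → ℂ)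
    (h : ∀ i, A (b i) = μ i • b i) : LinearMap.det A = ∏ i, μ i := by
  rw [← LinearMap.det_toMatrix b A]
  have : LinearMap.toMatrix b b A = Matrix.diagonal μ := by
    ext i j
    rw [LinearMap.toMatrix_apply, h]
    simp only [map_smul, Module.Basis.repr_self, Finsupp.smul_apply, Finsupp.single_apply, smul_eq_mul,
      Matrix.diagonal_apply]
    by_cases hij : i = j
    · subst hij; simp
    · simp [hij, Ne.symm hij]
  rw [this, Matrix.det_diagonal]

/-- Values of a nontrivial irreducible character of low degree at an involution. -/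
theorem values_at_involution (hna : ¬ ∀ a b : S, a * b = b * a) {n : ℕ}
    (ρ : Representation ℂ S (Fin n → ℂ)) (hf : ∀ g, ρ g = 1 → g = 1) (hn : n ≤ 4) {t : S}
    (ht : t ^ 2 = 1) (ht1 : t ≠ 1) :
    (n = 3 ∧ ρ.character t = -1) ∨ (n = 4 ∧ ρ.character t = 0) := by
  classical
  have hcent : ∀ c : ℂ, ρ t ≠ c • (LinearMap.id : (Fin n → ℂ) →ₗ[ℂ] _) := by
    intro c hc
    -- then `t` is central
    have hmem : t ∈ Subgroup.center S := by
      rw [Subgroup.mem_center_iff]
      intro g
      have h0 : ρ (g * t * g⁻¹) = ρ t := by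
        rw [map_mul, map_mul, hc]
        ext v i
        simp
      have h1 : ρ (g * t * g⁻¹ * t⁻¹) = 1 := by
        rw [map_mul, h0, ← map_mul, mul_inv_cancel, map_one]
      have h4 := hf _ h1
      have : g * t * g⁻¹ = t := by
        have := congrArg (· * t) h4
        simpa using this
      calc g * t = g * t * g⁻¹ * g := by group
        _ = t * g := by rw [this]
    have hz : Subgroup.center S = ⊥ := by
      rcases (inferInstance : (Subgroup.center S).Normal).eq_bot_or_eq_top with h | h
      · exact h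
      · exfalso
        apply hna
        intro a b
        have : a ∈ Subgroup.center S := by rw [h]; trivial
        exact (Subgroup.mem_center_iff.1 this b).symm
    rw [hz] at hmem
    exact ht1 (Subgroup.mem_bot.1 hmem)
  have hA : (ρ t) ^ 2 = 1 := by rw [← map_pow, ht, map_one]
  obtain ⟨b, μ, h1, h2, -, h4⟩ := Cfsg.Agent.Lib.Char.Values.exists_eigenvalues (ρ t) (by norm_num) hA
  have hfr : Module.finrank ℂ (Fin n → ℂ) = n := by simp
  have hdet := det_eq_prod_of_diag b (ρ t) μ h1
  rw [det_eq_one hna ρ t] at hdet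
  have hμ : ∀ i, μ i = 1 ∨ μ i = -1 := fun i => by
    have : μ i * μ i = 1 := by rw [← sq]; exact h2 i
    exact mul_self_eq_one_iff.1 this
  have hall1 : ¬ ∀ i, μ i = 1 := by
    intro h
    apply hcent 1
    refine b.ext fun i => ?_
    rw [h1, h]
    simp
  have hallm : ¬ ∀ i, μ i = -1 := by
    intro h
    apply hcent (-1)
    refine b.ext fun i => ?_
    rw [h1, h]
    simp
  have key : ∀ (k : ℕ) (μ : Fin k → ℂ), k ≤ 4 → (∀ i, μ i = 1 ∨ μ i = -1) → 1 = ∏ i, μ i →
      ¬ (∀ i, μ i = 1) → ¬ (∀ i, μ i = -1) →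
      (k = 3 ∧ ∑ i, μ i = -1) ∨ (k = 4 ∧ ∑ i, μ i = 0) := by
    intro k μ hk hμ hp h1 h2
    interval_cases k
    · exact absurd (fun i => i.elim0) h1
    · exfalso
      apply h1
      intro i
      fin_cases i
      simpa using hp.symm
    · exfalso
      simp only [Fin.prod_univ_two] at hp
      rcases hμ 0 with a | a <;> rcases hμ 1 with c | c <;> rw [a, c] at hp <;> first
        | (norm_num at hp; done)
        | (apply h1; intro i; fin_cases i <;> simp [a, c]; done)
        | (apply h2; intro i; fin_cases i <;> simp [a, c]; done)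
    · left
      refine ⟨rfl, ?_⟩
      simp only [Fin.prod_univ_three] at hp
      simp only [Fin.sum_univ_three]
      rcases hμ 0 with a | a <;> rcases hμ 1 with c | c <;> rcases hμ 2 with d | d <;>
        rw [a, c, d] at hp ⊢ <;> first
        | (norm_num at hp; done)
        | (norm_num; done)
        | (exfalso; apply h1; intro i; fin_cases i <;> simp [a, c, d]; done)
    · right
      refine ⟨rfl, ?_⟩
      simp only [Fin.prod_univ_four] at hp
      simp only [Fin.sum_univ_four]
      rcases hμ 0 with a | a <;> rcases hμ 1 with c | c <;> rcases hμ 2 with d | d <;>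
        rcases hμ 3 with e | e <;> rw [a, c, d, e] at hp ⊢ <;> first
        | (norm_num at hp; done)
        | (norm_num; done)
        | (exfalso; apply h1; intro i; fin_cases i <;> simp [a, c, d, e]; done)
        | (exfalso; apply h2; intro i; fin_cases i <;> simp [a, c, d, e]; done)
  have hchar : ρ.character t = ∑ i, μ i := h4
  rw [hchar]
  have hle : Module.finrank ℂ (Fin n → ℂ) ≤ 4 := by rw [hfr]; exact hn
  rcases key _ μ hle hμ hdet hall1 hallm with ⟨h5, h6⟩ | ⟨h5, h6⟩
  · left; rw [hfr] at h5; exact ⟨h5, h6⟩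
  · right; rw [hfr] at h5; exact ⟨h5, h6⟩

/-- **A nonabelian simple group has a character of degree at least five.** -/
theorem not_degLE_four (hna : ¬ ∀ a b : S, a * b = b * a) : ¬ DegLE S 4 := by
  classical
  intro h
  have := Fintype.ofFinite S
  have := Fintype.ofFinite (IrrCharacter S)
  have hone : IsIrrCharacter S (fun _ => (1 : ℂ)) := Cfsg.Agent.Lib.Char.Burnside2.isIrrCharacter_one
  let triv : IrrCharacter S := ⟨fun _ => 1, hone⟩
  -- a nontrivial irreducible character has a faithful representation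
  have hfaith : ∀ χ : IrrCharacter S, χ ≠ triv → ∃ (n : ℕ) (ρ : Representation ℂ S (Fin n → ℂ)),
      ρ.character = (χ : S → ℂ) ∧ (∀ g, ρ g = 1 → g = 1) ∧ n ≠ 1 ∧ n ≤ 4 := by
    intro χ hχ
    obtain ⟨n, ρ, hρ, hc⟩ := χ.2
    have hn4 : n ≤ 4 := h _ χ.2 n (by rw [← hc]; simp)
    refine ⟨n, ρ, hc, ?_, ?_, hn4⟩
    · rcases ker_dichotomy ρ with h1 | h1
      · exact h1
      · exfalso
        -- `ρ` is trivial
        have hv : ∀ g, (χ : S → ℂ) g = n := by
          intro g
          rw [← hc]
          simp [Representation.character, h1 g]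
        have hnorm := sum_norm_sq_eq_card χ.2
        simp only [hv, Complex.norm_natCast, Finset.sum_const, Finset.card_univ, nsmul_eq_mul,
          ← Nat.card_eq_fintype_card] at hnorm
        have hc0 : (Nat.card S : ℝ) ≠ 0 := by exact_mod_cast Nat.card_pos.ne'
        have h2 : (n : ℝ) ^ 2 = 1 := by
          have : (Nat.card S : ℝ) * (n : ℝ) ^ 2 = (Nat.card S : ℝ) * 1 := by rw [hnorm, mul_one]
          exact mul_left_cancel₀ hc0 this
        have h3 : n = 1 := by
          have : n ^ 2 = 1 := by exact_mod_cast h2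
          simpa using this
        apply hχ
        apply Subtype.ext
        funext g
        show (χ : S → ℂ) g = 1
        rw [hv, h3]
        simp
    · -- degree one: determinant one, so trivial
      rintro rfl
      apply hχ
      apply Subtype.ext
      funext g
      show (χ : S → ℂ) g = 1
      rw [← hc]
      have h1 := det_eq_one hna ρ g
      have h2 : LinearMap.trace ℂ (Fin 1 → ℂ) (ρ g) = LinearMap.det (ρ g) := by
        rw [LinearMap.trace_eq_matrix_trace ℂ (Pi.basisFun ℂ (Fin 1)), ← LinearMap.det_toMatrix (Pi.basisFun ℂ (Fin 1))]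
        simp [Matrix.trace]
      rw [h1] at h2
      exact h2
  by_cases heven : 2 ∣ Nat.card S
  · -- an involution
    haveI : Fact (Nat.Prime 2) := ⟨Nat.prime_two⟩
    obtain ⟨t, ht⟩ := exists_prime_orderOf_dvd_card' (G := S) 2 heven
    have ht2 : t ^ 2 = 1 := by rw [← ht]; exact pow_orderOf_eq_one t
    have ht1 : t ≠ 1 := by
      rintro rfl
      simp at ht
    have hnc : ¬ IsConj t 1 := fun hc => ht1 (isConj_one_right.1 hc.symm)
    have hsum := Cfsg.Agent.Lib.Char.CompleteCor.column_orth_not_conj hnc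
    -- integer values
    have hval : ∀ χ : IrrCharacter S, χ ≠ triv → ∃ m : ℤ, (3 : ℤ) ∣ m ∧
        (χ : S → ℂ) t * conj ((χ : S → ℂ) 1) = m := by
      intro χ hχ
      obtain ⟨n, ρ, hc, hf, -, hn⟩ := hfaith χ hχ
      rcases values_at_involution hna ρ hf hn ht2 ht1 with ⟨h3, h4⟩ | ⟨h3, h4⟩
      · refine ⟨-3, by norm_num, ?_⟩
        rw [← hc, h4]
        subst h3
        simp [map_ofNat]
      · refine ⟨0, by norm_num, ?_⟩
        rw [← hc, h4]
        simp
    choose! m hm3 hm using hval
    have h5 : ∑ χ : IrrCharacter S, (χ : S → ℂ) t * conj ((χ : S → ℂ) 1) =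
        1 + ∑ χ ∈ Finset.univ.erase triv, ((m χ : ℤ) : ℂ) := by
      rw [← Finset.add_sum_erase _ _ (Finset.mem_univ triv)]
      congr 1
      · simp [triv]
      · refine Finset.sum_congr rfl fun χ hχ => ?_
        exact hm χ (Finset.ne_of_mem_erase hχ)
    rw [h5] at hsum
    have h6 : (1 : ℤ) + ∑ χ ∈ Finset.univ.erase triv, m χ = 0 := by
      exact_mod_cast hsum
    have h7 : (3 : ℤ) ∣ ∑ χ ∈ Finset.univ.erase triv, m χ :=
      Finset.dvd_sum fun χ hχ => hm3 χ (Finset.ne_of_mem_erase hχ)
    omega
  · -- odd order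
    have hdeg : ∀ χ : IrrCharacter S, χ ≠ triv → (χ : S → ℂ) 1 = 3 := by
      intro χ hχ
      obtain ⟨n, ρ, hc, hf, hn1, hn⟩ := hfaith χ hχ
      obtain ⟨d, hd1, hd2, hd3⟩ := Cfsg.Agent.Lib.Char.GlaubOver.exists_degree_dvd χ.2
      have hnd : n = d := by
        have : (n : ℂ) = d := by
          rw [← hd1, ← hc]
          simp
        exact_mod_cast this
      subst hnd
      have hn' : n ≠ 2 ∧ n ≠ 4 ∧ n ≠ 0 := by
        refine ⟨?_, ?_, hd2⟩
        · rintro rfl
          exact heven hd3
        · rintro rfl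
          exact heven (dvd_trans (by norm_num) hd3)
      have : n = 3 := by omega
      rw [hd1, this]
      norm_num
    have hsq := Cfsg.Agent.Lib.Char.CompleteCor.sum_sq_degrees (G := S)
    rw [← Finset.add_sum_erase _ _ (Finset.mem_univ triv)] at hsq
    have h1 : ((triv : S → ℂ) 1) ^ 2 = 1 := by simp [triv]
    have h2 : ∀ χ ∈ Finset.univ.erase triv, (χ : S → ℂ) 1 ^ 2 = ((9 : ℕ) : ℂ) := by
      intro χ hχ
      rw [hdeg χ (Finset.ne_of_mem_erase hχ)]
      norm_num
    rw [h1, Finset.sum_congr rfl h2] at hsq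
    simp only [Finset.sum_const, nsmul_eq_mul] at hsq
    have h3 : 1 + (Finset.univ.erase triv).card * 9 = Nat.card S := by exact_mod_cast hsq
    -- a nontrivial character exists
    have hnt : (Finset.univ.erase triv).Nonempty := by
      rw [Finset.nonempty_iff_ne_empty]
      intro h0
      rw [h0] at h3
      have hcard : Nat.card S = 1 := by simpa using h3.symm
      have := Finite.one_lt_card (α := S)
      omega
    obtain ⟨χ, hχ⟩ := hnt
    obtain ⟨d, hd1, hd2, hd3⟩ := Cfsg.Agent.Lib.Char.GlaubOver.exists_degree_dvd χ.2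
    have hd : d = 3 := by
      have := hdeg χ (Finset.ne_of_mem_erase hχ)
      rw [hd1] at this
      exact_mod_cast this
    rw [hd] at hd3
    omega

end

end Cfsg.Agent.Lib.Blocks.IPass
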