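import Mathlib
import Cfsg.Agent.Lib.Blocks.IPass.Simple

/-!
# Small classes; nonabelian minimal normal subgroups
-/

set_option autoImplicit false

namespace Cfsg.Agent.Lib.Blocks.IPass

open Cfsg Cfsg.Agent.Lib.Char.Basic Cfsg.Agent.Lib.Char.Ortho Cfsg.Agent.Lib.Char.Induced
  Cfsg.Agent.Lib.Char.IndRep Cfsg.Agent.Lib.Char.Clifford Cfsg.Agent.Lib.Char.CliffordCorr
  Cfsg.Agent.Lib.Char.MackeyNormal
open scoped ComplexConjugate commutatorElement

universe u

section
variable {Q : Type u} [Group Q] [Finite Q]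

/-- A nontrivial group with degrees at most `b` has a nonidentity class of size at most `b²`. -/
theorem exists_small_class [Nontrivial Q] {b : ℕ} (h : DegLE Q b) :
    ∃ x : Q, x ≠ 1 ∧ (Subgroup.centralizer ({x} : Set Q)).index ≤ b ^ 2 := by
  classical
  have := Fintype.ofFinite Q
  have := Fintype.ofFinite (IrrCharacter Q)
  by_contra hcon
  push Not at hcon
  set k := Fintype.card (IrrCharacter Q) with hk
  set a : Q → ℕ := fun x => Nat.card (Subgroup.centralizer ({x} : Set Q)) with ha
  have hcardQ : 1 < Nat.card Q := Finite.one_lt_card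
  -- the class sum
  have h1 : ∀ x : Q, ∑ χ : IrrCharacter Q, ‖(χ : Q → ℂ) x‖ ^ 2 = (a x : ℝ) := by
    intro x
    have h2 := Cfsg.Agent.Lib.Char.CompleteCor.column_orth_conj (G := Q) (IsConj.refl x)
    have h3 : ∑ χ : IrrCharacter Q, (χ : Q → ℂ) x * conj ((χ : Q → ℂ) x) =
        ((∑ χ : IrrCharacter Q, ‖(χ : Q → ℂ) x‖ ^ 2 : ℝ) : ℂ) := by
      push_cast
      refine Finset.sum_congr rfl fun χ _ => ?_
      rw [Complex.mul_conj, Complex.normSq_eq_norm_sq]
      push_cast
      rfl
    rw [h3] at h2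
    exact_mod_cast h2
  have h2 : ∑ x : Q, (a x : ℝ) = k * Nat.card Q := by
    simp_rw [← h1]
    rw [Finset.sum_comm]
    have h3 : ∀ χ : IrrCharacter Q, ∑ x : Q, ‖(χ : Q → ℂ) x‖ ^ 2 = (Nat.card Q : ℝ) :=
      fun χ => sum_norm_sq_eq_card χ.2
    simp only [h3, Finset.sum_const, Finset.card_univ, nsmul_eq_mul, hk]
  have h2' : ∑ x : Q, a x = k * Nat.card Q := by exact_mod_cast h2
  have ha1 : a 1 = Nat.card Q := by
    simp only [ha]
    have : Subgroup.centralizer ({1} : Set Q) = ⊤ := by
      ext y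
      simp [Subgroup.mem_centralizer_iff]
    rw [this]
    simp
  -- the degrees
  have hone : IsIrrCharacter Q (fun _ => (1 : ℂ)) := Cfsg.Agent.Lib.Char.Burnside2.isIrrCharacter_one
  let triv : IrrCharacter Q := ⟨fun _ => 1, hone⟩
  have hdeg : ∀ χ : IrrCharacter Q, ∃ n : ℕ, (χ : Q → ℂ) 1 = n ∧ n ≤ b := by
    intro χ
    obtain ⟨n, -, hn⟩ := irr_degree_pos χ.2
    exact ⟨n, hn, h _ χ.2 n hn⟩
  choose deg hdeg1 hdeg2 using hdeg
  have hsq := Cfsg.Agent.Lib.Char.CompleteCor.sum_sq_degrees (G := Q)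
  simp only [hdeg1] at hsq
  have hsq' : ∑ χ : IrrCharacter Q, deg χ ^ 2 = Nat.card Q := by exact_mod_cast hsq
  have htriv : deg triv = 1 := by
    have := hdeg1 triv
    have h4 : ((deg triv : ℕ) : ℂ) = 1 := by rw [← this]
    exact_mod_cast h4
  have hle1 : Nat.card Q ≤ 1 + (k - 1) * b ^ 2 := by
    have h5 : ∑ χ ∈ Finset.univ.erase triv, deg χ ^ 2 ≤ (k - 1) * b ^ 2 := by
      calc ∑ χ ∈ Finset.univ.erase triv, deg χ ^ 2 ≤ ∑ _χ ∈ Finset.univ.erase triv, b ^ 2 :=
            Finset.sum_le_sum fun χ _ => Nat.pow_le_pow_left (hdeg2 χ) 2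
        _ = (k - 1) * b ^ 2 := by
            rw [Finset.sum_const, Finset.card_erase_of_mem (Finset.mem_univ _), Finset.card_univ,
              smul_eq_mul]
    have h6 := Finset.add_sum_erase (Finset.univ : Finset (IrrCharacter Q)) (fun χ => deg χ ^ 2)
      (Finset.mem_univ triv)
    simp only [htriv, one_pow] at h6
    omega
  -- large classes
  have hk1 : 1 ≤ k := by
    rw [hk]
    exact Fintype.card_pos_iff.2 ⟨triv⟩
  have hlarge : ∀ x ∈ Finset.univ.erase (1 : Q), a x * (b ^ 2 + 1) ≤ Nat.card Q := by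
    intro x hx
    have h6 := hcon x (Finset.ne_of_mem_erase hx)
    have h7 := Subgroup.index_mul_card (Subgroup.centralizer ({x} : Set Q))
    calc a x * (b ^ 2 + 1) ≤ a x * (Subgroup.centralizer ({x} : Set Q)).index :=
          Nat.mul_le_mul_left _ h6
      _ = Nat.card Q := by rw [mul_comm]; exact h7
  have hsum2 : ∑ x ∈ Finset.univ.erase (1 : Q), a x = (k - 1) * Nat.card Q := by
    have := Finset.add_sum_erase (Finset.univ : Finset Q) a (Finset.mem_univ (1 : Q))
    rw [h2', ha1] at this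
    obtain ⟨k', hk'⟩ : ∃ k', k = k' + 1 := ⟨k - 1, by omega⟩
    rw [hk'] at this ⊢
    simp only [Nat.add_sub_cancel]
    nlinarith
  have hfinal : (k - 1) * Nat.card Q * (b ^ 2 + 1) ≤ (Nat.card Q - 1) * Nat.card Q := by
    rw [← hsum2, Finset.sum_mul]
    calc ∑ x ∈ Finset.univ.erase (1 : Q), a x * (b ^ 2 + 1)
        ≤ ∑ _x ∈ Finset.univ.erase (1 : Q), Nat.card Q := Finset.sum_le_sum hlarge
      _ = (Nat.card Q - 1) * Nat.card Q := by
        rw [Finset.sum_const, Finset.card_erase_of_mem (Finset.mem_univ _), Finset.card_univ,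
          smul_eq_mul, Nat.card_eq_fintype_card]
  have hpos : 0 < Nat.card Q := Nat.card_pos
  have h8 : (k - 1) * (b ^ 2 + 1) ≤ Nat.card Q - 1 := by
    have : (k - 1) * (b ^ 2 + 1) * Nat.card Q ≤ (Nat.card Q - 1) * Nat.card Q := by
      calc (k - 1) * (b ^ 2 + 1) * Nat.card Q = (k - 1) * Nat.card Q * (b ^ 2 + 1) := by ring
        _ ≤ _ := hfinal
    exact Nat.le_of_mul_le_mul_right this hpos
  have h9 : (k - 1) * (b ^ 2 + 1) = (k - 1) * b ^ 2 + (k - 1) := by ring
  have h10 : k - 1 = 0 := by omega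
  rw [h10] at hle1
  omega

end

section
variable {Q : Type u} [Group Q] (hQ : Mono Q)
  (hnab : ¬ ∀ x ∈ commutator Q, ∀ y ∈ commutator Q, x * y = y * x)
include hQ hnab

theorem Mono.centralizer_eq_one {x : Q} (hx : ∀ d ∈ commutator Q, x * d = d * x) : x = 1 := by
  by_contra hx1
  have hn : (Subgroup.centralizer (commutator Q : Set Q)).Normal := Subgroup.normal_centralizer
  have hne : Subgroup.centralizer (commutator Q : Set Q) ≠ ⊥ := by
    intro h
    have : x ∈ Subgroup.centralizer (commutator Q : Set Q) :=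
      Subgroup.mem_centralizer_iff.2 fun y hy => (hx y hy).symm
    rw [h] at this
    exact hx1 (Subgroup.mem_bot.1 this)
  have hle := hQ.le _ hn hne
  apply hnab
  intro a ha b hb
  exact (Subgroup.mem_centralizer_iff.1 (hle ha) b hb).symm

/-- The core of the centralizer is trivial. -/
theorem Mono.core_eq_bot {x : Q} (hx : x ≠ 1) :
    (Subgroup.centralizer ({x} : Set Q)).normalCore = ⊥ := by
  by_contra hne
  have hle := hQ.le _ (Subgroup.normalCore_normal _) hne
  apply hx
  apply hQ.centralizer_eq_one hnab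
  intro d hd
  have h1 := Subgroup.normalCore_le _ (hle hd)
  rw [mem_cent] at h1
  exact h1.symm

omit hnab in
theorem Mono.nontrivial : Nontrivial Q := by
  by_contra h
  rw [not_nontrivial_iff_subsingleton] at h
  exact hQ.ne (Subsingleton.elim _ _)

/-- The bound `5 ≤ b`. -/
theorem Mono.five_le [Finite Q] {b : ℕ} (h : DegLE Q b) : 5 ≤ b := by
  classical
  by_contra hb
  have h4 : DegLE Q 4 := h.mono (by omega)
  have hDn : (commutator Q).Normal := inferInstance
  let L := commutator Q
  -- `L` is perfect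
  have hperf : ∀ a b : L, ⁅a, b⁆ ∈ (⊤ : Subgroup L) := fun _ _ => trivial
  have hcomm : ⁅L, L⁆ = L := by
    have hn : (⁅L, L⁆ : Subgroup Q).Normal := Subgroup.commutator_normal L L
    have hne : (⁅L, L⁆ : Subgroup Q) ≠ ⊥ := by
      intro h0
      apply hnab
      intro a ha b hb
      have h1 : ⁅a, b⁆ ∈ (⁅L, L⁆ : Subgroup Q) := Subgroup.commutator_mem_commutator ha hb
      rw [h0] at h1
      exact commutatorElement_eq_one_iff_mul_comm.1 (Subgroup.mem_bot.1 h1)
    exact le_antisymm (Subgroup.commutator_le_self L) (hQ.le _ hn hne)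
  haveI : Nontrivial L := by
    rw [Subgroup.nontrivial_iff_ne_bot]
    exact hQ.ne
  -- a maximal proper normal subgroup of `L`
  let P : Subgroup L → Prop := fun W => W.Normal ∧ W ≠ ⊤
  have hP0 : P ⊥ := ⟨inferInstance, bot_ne_top⟩
  obtain ⟨W, -, hW⟩ := Finite.exists_le_maximal (α := Subgroup L) hP0
  obtain ⟨hWn, hWt⟩ := hW.1
  haveI := hWn
  -- the quotient is simple
  haveI hs : IsSimpleGroup (L ⧸ W) := by
    have hnt : Nontrivial (L ⧸ W) := QuotientGroup.nontrivial_iff.2 hWt
    refine ⟨?_⟩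
    intro N hN
    by_cases h1 : N.comap (QuotientGroup.mk' W) = ⊤
    · right
      have := Subgroup.map_comap_eq_self_of_surjective (QuotientGroup.mk'_surjective W) N
      rw [← this, h1, Subgroup.map_top_of_surjective _ (QuotientGroup.mk'_surjective W)]
    · left
      have h2 : W ≤ N.comap (QuotientGroup.mk' W) := by
        intro w hw
        rw [Subgroup.mem_comap]
        have : QuotientGroup.mk' W w = 1 := (QuotientGroup.eq_one_iff w).2 hw
        rw [this]
        exact N.one_mem
      have h3 : P (N.comap (QuotientGroup.mk' W)) := ⟨Subgroup.Normal.comap hN _, h1⟩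
      have h4 := hW.2 h3 h2
      rw [eq_bot_iff]
      intro y hy
      obtain ⟨w, rfl⟩ := QuotientGroup.mk'_surjective W y
      have h5 : w ∈ W := h4 hy
      exact Subgroup.mem_bot.2 ((QuotientGroup.eq_one_iff w).2 h5)
  have hna : ¬ ∀ a b : L ⧸ W, a * b = b * a := by
    intro hc
    apply hWt
    rw [eq_top_iff]
    -- `L` is generated by commutators
    have hle : (commutator L) ≤ W := by
      rw [commutator_def, Subgroup.commutator_le]
      intro a _ b _
      rw [← QuotientGroup.eq_one_iff]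
      have : ((⁅a, b⁆ : L) : L ⧸ W) = ⁅(a : L ⧸ W), (b : L ⧸ W)⁆ := rfl
      rw [this]
      exact commutatorElement_eq_one_iff_mul_comm.2 (hc _ _)
    refine le_trans ?_ hle
    -- `commutator L = ⊤`
    have h6 : (commutator L).map L.subtype = L := by
      rw [commutator_def, Subgroup.map_commutator, ← MonoidHom.range_eq_map, Subgroup.range_subtype,
        hcomm]
    intro y _
    have h7 : (y : Q) ∈ (commutator L).map L.subtype := by rw [h6]; exact y.2
    obtain ⟨z, hz, hzy⟩ := h7
    have : z = y := Subtype.ext hzy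
    rwa [← this]
  have := Fintype.ofFinite Q
  exact not_degLE_four hna ((h4.res L).quot W)

end

end Cfsg.Agent.Lib.Blocks.IPass
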