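import Mathlib
import Cfsg.Agent.Lib.Blocks.IPass.Small
import Cfsg.Agent.Lib.Char.GlaubCyclic
import Cfsg.Agent.Lib.Char.Burnside2

/-!
# Isaacs-Passman: an abelian subgroup of index at most `(b!)²`
-/

set_option autoImplicit false

namespace Cfsg.Agent.Lib.Blocks.IPass

open Cfsg Cfsg.Agent.Lib.Char.Basic Cfsg.Agent.Lib.Char.Ortho Cfsg.Agent.Lib.Char.Induced
  Cfsg.Agent.Lib.Char.IndRep Cfsg.Agent.Lib.Char.Clifford Cfsg.Agent.Lib.Char.CliffordCorr
  Cfsg.Agent.Lib.Char.MackeyNormal
open scoped ComplexConjugate commutatorElement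

universe u

variable {G : Type u} [Group G]

/-- A nonabelian group has a nonlinear irreducible character. -/
theorem exists_nonlinear [Finite G] (hG : commutator G ≠ ⊥) :
    ∃ (Ψ : G → ℂ) (d : ℕ), IsIrrCharacter G Ψ ∧ Ψ 1 = d ∧ 2 ≤ d := by
  classical
  have := Fintype.ofFinite G
  have hne : ∃ x y : G, ⁅x, y⁆ ≠ 1 := by
    by_contra hcon
    push Not at hcon
    apply hG
    rw [eq_bot_iff, commutator_def, Subgroup.commutator_le]
    intro a _ b _
    exact Subgroup.mem_bot.2 (hcon a b)
  obtain ⟨x, y, hxy⟩ := hne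
  obtain ⟨Ψ, hΨ, hd⟩ : ∃ Ψ : G → ℂ, IsIrrCharacter G Ψ ∧ Ψ ⁅x, y⁆ ≠ Ψ 1 := by
    by_contra hcon
    push Not at hcon
    have := Cfsg.Agent.Lib.Char.CompleteCor.isConj_of_forall_irr (g := ⁅x, y⁆) (h := 1)
      (fun χ => hcon χ.1 χ.2)
    exact hxy (isConj_one_right.1 this.symm)
  obtain ⟨n, hn0, hn⟩ := irr_degree_pos hΨ
  refine ⟨Ψ, n, hΨ, hn, ?_⟩
  by_contra hn2
  have hn1 : n = 1 := by omega
  subst hn1
  obtain ⟨m, ρ, hρ, rfl⟩ := id hΨ
  have hm : m = 1 := by
    have : (m : ℂ) = ((1 : ℕ) : ℂ) := by
      rw [← hn]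
      simp
    exact_mod_cast this
  subst hm
  apply hd
  -- operators on a line commute
  have hcomm : ∀ A B : (Fin 1 → ℂ) →ₗ[ℂ] (Fin 1 → ℂ), A * B = B * A := by
    intro A B
    have hA : ∀ w : Fin 1 → ℂ, A w = (A (Pi.single 0 1) 0) • w := by
      intro w
      ext j
      have hj : j = 0 := Subsingleton.elim _ _
      subst hj
      have hw : w = (w 0) • (Pi.single 0 (1 : ℂ) : Fin 1 → ℂ) := by
        ext k
        have hk : k = 0 := Subsingleton.elim _ _
        subst hk
        simp
      conv_lhs => rw [hw]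
      simp [mul_comm]
    have hB : ∀ w : Fin 1 → ℂ, B w = (B (Pi.single 0 1) 0) • w := by
      intro w
      ext j
      have hj : j = 0 := Subsingleton.elim _ _
      subst hj
      have hw : w = (w 0) • (Pi.single 0 (1 : ℂ) : Fin 1 → ℂ) := by
        ext k
        have hk : k = 0 := Subsingleton.elim _ _
        subst hk
        simp
      conv_lhs => rw [hw]
      simp [mul_comm]
    refine LinearMap.ext fun w => ?_
    rw [Module.End.mul_apply, Module.End.mul_apply, hA (B w), hB w, hB (A w), hA w, smul_comm]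
  have h1 : ρ ⁅x, y⁆ = 1 := by
    have h2 : ρ x * ρ y = ρ y * ρ x := hcomm _ _
    have : ρ (x * y) = ρ (y * x) := by rw [map_mul, map_mul, h2]
    rw [commutatorElement_def, map_mul, map_mul, this, ← map_mul, ← map_mul]
    have h3 : y * x * x⁻¹ * y⁻¹ = 1 := by group
    rw [h3, map_one]
  simp [Representation.character, h1]

/-- The irreducible degrees of a normal subgroup are at most half of the top degree if the quotient
is nonabelian. -/
theorem degLE_half [Finite G] {b : ℕ} (h : DegLE G b) (M : Subgroup G) [hM : M.Normal]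
    (hQ : commutator (G ⧸ M) ≠ ⊥) : DegLE M (b / 2) := by
  classical
  have := Fintype.ofFinite G
  have := Fintype.ofFinite M
  intro φ hφ a ha
  obtain ⟨χ, hχ, hne⟩ := exists_over M hφ
  obtain ⟨c, -, hc⟩ := irr_degree_pos hχ
  have hcb := h χ hχ c hc
  obtain ⟨Ξ, hΞ, he⟩ := exists_char_add (isCharacter_restrict (isCharacter_of_isIrrCharacter hχ) M)
    hφ hne
  obtain ⟨d, hd⟩ := exists_nat_apply_one hΞ
  have hcad : c = a + d := by
    have h1 := congrFun he 1
    have : ((1 : M) : G) = 1 := rfl
    simp only [Pi.add_apply, this, ha, hd, hc] at h1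
    exact_mod_cast h1
  by_cases hd0 : d = 0
  · -- `χ` extends `φ`: Gallagher
    have hΞ0 := eq_zero_of_apply_one_eq_zero hΞ (by rw [hd, hd0]; simp)
    have hext : ∀ n : M, χ n = φ n := by
      intro n
      have := congrFun he n
      rw [hΞ0] at this
      simpa using this
    obtain ⟨Ψ, e, hΨ, hΨ1, he2⟩ := exists_nonlinear hQ
    have hone : IsIrrCharacter M (fun _ => (1 : ℂ)) := Cfsg.Agent.Lib.Char.Burnside2.isIrrCharacter_one
    have hχcl : IsClassFunction G χ := isClassFunction_of_isCharacter (isCharacter_of_isIrrCharacter hχ)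
    have hφinv : ∀ (g : G) (n : M), φ ⟨g * n * g⁻¹, hM.conj_mem (n : G) n.2 g⟩ = φ n := by
      intro g n
      rw [← hext, ← hext]
      exact hχcl n g
    have hprod : IsIrrCharacter M ((fun _ => (1 : ℂ)) * φ) := by
      have : ((fun _ => (1 : ℂ)) * φ) = φ := by
        funext n
        simp
      rw [this]
      exact hφ
    have hbij := Cfsg.Agent.Lib.Char.Gallagher.gallagher_bijOn M hone (fun _ _ => rfl) hφinv hprod
      hχ hext
    let β : G → ℂ := fun g => Ψ (g : G ⧸ M)
    have hβ : IsIrrCharacter G β := isIrrCharacter_comp_surjective hΨ (QuotientGroup.mk' M)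
      (QuotientGroup.mk'_surjective M)
    have hβc : IsClassFunction G β := isClassFunction_of_isCharacter (isCharacter_of_isIrrCharacter hβ)
    have hβ1 : β 1 = e := by simpa [β] using hΨ1
    have hmem : β ∈ {β : G → ℂ | IsIrrCharacter G β ∧ classInner (indFun M (fun _ => (1 : ℂ))) β ≠ 0} := by
      refine ⟨hβ, ?_⟩
      rw [frobenius_reciprocity M _ β hβc]
      have h1 : (fun n : M => β n) = (e : ℂ) • (fun _ => (1 : ℂ)) := by
        funext n
        have hn : ((n : G) : G ⧸ M) = 1 := (QuotientGroup.eq_one_iff (n : G)).2 n.2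
        have : β n = Ψ 1 := by
          show Ψ ((n : G) : G ⧸ M) = Ψ 1
          rw [hn]
        rw [this, hΨ1]
        simp
      rw [h1, classInner_smul_right, classInner_irr_self hone]
      simp only [mul_one, Complex.conj_natCast]
      exact_mod_cast (by omega : e ≠ 0)
    have hirr := (hbij.mapsTo hmem).1
    have hdeg : (β * χ) 1 = ((e * a : ℕ) : ℂ) := by
      have hh : χ 1 = a := by
        rw [← ha]
        exact hext 1
      simp only [Pi.mul_apply, hβ1, hh]
      push_cast
      ring
    have := h _ hirr _ hdeg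
    rw [Nat.le_div_iff_mul_le (by norm_num)]
    nlinarith
  · -- a second constituent, of the same degree
    have hΞ1 : Ξ 1 ≠ 0 := by
      rw [hd]
      exact_mod_cast hd0
    obtain ⟨ψ, hψ, hne2⟩ := exists_irr_constituent hΞ hΞ1
    have hχres : IsCharacter M (fun n : M => χ n) := isCharacter_restrict (isCharacter_of_isIrrCharacter hχ) M
    have hne3 : classInner (fun n : M => χ n) ψ ≠ 0 := by
      by_cases hψφ : φ = ψ
      · rw [← hψφ]
        exact hne
      · rw [he, classInner_add_left, classInner_irr_of_ne hφ hψ hψφ, zero_add]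
        exact hne2
    obtain ⟨g, hg⟩ := exists_conj_of_classInner_ne_zero M hχ hφ hψ hne hne3
    have hψ1 : ψ 1 = a := by
      rw [hg, conjFun_apply, ← ha]
      congr 1
      apply Subtype.ext
      simp
    obtain ⟨Ξ', hΞ', he'⟩ := exists_char_add hΞ hψ hne2
    obtain ⟨d', hd'⟩ := exists_nat_apply_one hΞ'
    have hda : d = a + d' := by
      have h1 := congrFun he' 1
      simp only [Pi.add_apply, hd, hψ1, hd'] at h1
      exact_mod_cast h1
    rw [Nat.le_div_iff_mul_le (by norm_num)]
    omega

/-- A quotient with the monolith property. -/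
theorem exists_mono [Finite G] (hG : commutator G ≠ ⊥) :
    ∃ (M : Subgroup G) (_ : M.Normal), Mono (G ⧸ M) := by
  classical
  let P : Subgroup G → Prop := fun W => W.Normal ∧ ¬ commutator G ≤ W
  have hP0 : P ⊥ := ⟨inferInstance, fun h => hG (le_bot_iff.1 h)⟩
  obtain ⟨M, -, hM⟩ := Finite.exists_le_maximal (α := Subgroup G) hP0
  obtain ⟨hMn, hMc⟩ := hM.1
  haveI := hMn
  refine ⟨M, hMn, ?_, ?_⟩
  · intro h0
    apply hMc
    rw [commutator_def, Subgroup.commutator_le]
    intro a _ b _
    rw [← QuotientGroup.eq_one_iff]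
    have h1 : ((⁅a, b⁆ : G) : G ⧸ M) = ⁅(a : G ⧸ M), (b : G ⧸ M)⁆ := rfl
    rw [h1]
    have h2 : ⁅(a : G ⧸ M), (b : G ⧸ M)⁆ ∈ commutator (G ⧸ M) := by
      rw [commutator_def]
      exact Subgroup.commutator_mem_commutator (Subgroup.mem_top _) (Subgroup.mem_top _)
    rw [h0] at h2
    exact Subgroup.mem_bot.1 h2
  · intro N hN hne
    have hcomapn : (N.comap (QuotientGroup.mk' M)).Normal := Subgroup.Normal.comap hN _
    have hle : M ≤ N.comap (QuotientGroup.mk' M) := by
      intro w hw
      rw [Subgroup.mem_comap]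
      have : QuotientGroup.mk' M w = 1 := (QuotientGroup.eq_one_iff w).2 hw
      rw [this]
      exact N.one_mem
    have hc : commutator G ≤ N.comap (QuotientGroup.mk' M) := by
      by_contra hcon
      have h1 : P (N.comap (QuotientGroup.mk' M)) := ⟨hcomapn, hcon⟩
      have h2 := hM.2 h1 hle
      apply hne
      rw [eq_bot_iff]
      intro y hy
      obtain ⟨w, rfl⟩ := QuotientGroup.mk'_surjective M y
      have h5 : w ∈ M := h2 hy
      exact Subgroup.mem_bot.2 ((QuotientGroup.eq_one_iff w).2 h5)
    rw [commutator_def, Subgroup.commutator_le]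
    intro a _ b _
    obtain ⟨x, rfl⟩ := QuotientGroup.mk'_surjective M a
    obtain ⟨y, rfl⟩ := QuotientGroup.mk'_surjective M b
    have h3 : ⁅x, y⁆ ∈ commutator G := by
      rw [commutator_def]
      exact Subgroup.commutator_mem_commutator (Subgroup.mem_top _) (Subgroup.mem_top _)
    have h4 := hc h3
    rw [Subgroup.mem_comap] at h4
    have h5 : QuotientGroup.mk' M ⁅x, y⁆ = ⁅QuotientGroup.mk' M x, QuotientGroup.mk' M y⁆ := by
      simp [commutatorElement_def]
    rwa [h5] at h4

/-- The central case. -/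
theorem central_case [Finite G] {b : ℕ} (h : DegLE G b) (M : Subgroup G) [M.Normal]
    (hQ : Mono (G ⧸ M)) (hc : commutator (G ⧸ M) ≤ Subgroup.center (G ⧸ M)) :
    ∃ H : Subgroup G, H.index ≤ b ^ 2 ∧ DegLE H (b - 1) := by
  classical
  have := Fintype.ofFinite G
  have := Fintype.ofFinite (G ⧸ M)
  obtain ⟨Ψ, d, hΨ, hd, hd2, hv, hn, hidx⟩ := hQ.central hc
  let π := QuotientGroup.mk' M
  have hπ : Function.Surjective π := QuotientGroup.mk'_surjective M
  let H := (Subgroup.center (G ⧸ M)).comap π
  have := Fintype.ofFinite H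
  have hH : H.index = (Subgroup.center (G ⧸ M)).index := Subgroup.index_comap_of_surjective _ hπ
  let Φ : G → ℂ := fun g => Ψ (π g)
  have hΦ : IsIrrCharacter G Φ := isIrrCharacter_comp_surjective hΨ π hπ
  have hΦ1 : Φ 1 = d := by simpa [Φ] using hd
  refine ⟨H, ?_, ?_⟩
  · rw [hH, ← hidx]
    exact Nat.pow_le_pow_left (h Φ hΦ d hΦ1) 2
  · refine degLE_pred h H fun χ hχ hb => ?_
    refine no_top_of_ramified h H hΦ hΦ1 hd2 ?_ ?_ (by rw [hH, hidx]) hχ hb
    · intro g hg
      exact hv _ hg
    · intro g hg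
      exact hn _ hg

/-- The noncentral abelian case. -/
theorem frob_case [Finite G] {b : ℕ} (h : DegLE G b) (M : Subgroup G) [hMn : M.Normal]
    (hQ : Mono (G ⧸ M)) (hab : ∀ x ∈ commutator (G ⧸ M), ∀ y ∈ commutator (G ⧸ M), x * y = y * x)
    (hnc : ¬ commutator (G ⧸ M) ≤ Subgroup.center (G ⧸ M)) :
    ∃ H : Subgroup G, H.index ≤ b ^ 2 ∧ DegLE H (b - 1) := by
  classical
  have := Fintype.ofFinite G
  have hDn : (commutator (G ⧸ M)).Normal := inferInstance
  let π := QuotientGroup.mk' M
  have hπ : Function.Surjective π := QuotientGroup.mk'_surjective M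
  let D := commutator (G ⧸ M)
  let N := D.comap π
  have hNn : N.Normal := Subgroup.Normal.comap hDn π
  haveI := hNn
  have := Fintype.ofFinite N
  have := Fintype.ofFinite M
  have hMN : M ≤ N := by
    intro w hw
    rw [Subgroup.mem_comap]
    have : π w = 1 := (QuotientGroup.eq_one_iff w).2 hw
    rw [this]
    exact D.one_mem
  have hNi : N.index = D.index := Subgroup.index_comap_of_surjective _ hπ
  have hDtop : D ≠ ⊤ := by
    intro htop
    apply hQ.ne
    rw [commutator_def, eq_bot_iff, Subgroup.commutator_le]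
    intro a _ b _
    refine Subgroup.mem_bot.2 (commutatorElement_eq_one_iff_mul_comm.2 ?_)
    exact hab a (by rw [show commutator (G ⧸ M) = D from rfl, htop]; trivial) b
      (by rw [show commutator (G ⧸ M) = D from rfl, htop]; trivial)
  have hm2 : 2 ≤ N.index := by
    have h0 : N.index ≠ 0 := Subgroup.index_ne_zero_of_finite
    have h1 : N.index ≠ 1 := by
      rw [hNi, Ne, Subgroup.index_eq_one]
      exact hDtop
    omega
  -- a nontrivial linear character of `D`
  obtain ⟨l, d₀, hl⟩ : ∃ (l : D →* ℂˣ) (d : D), l d ≠ 1 := by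
    letI : CommGroup D := { (inferInstance : Group D) with
      mul_comm := fun a b => Subtype.ext (hab a a.2 b b.2) }
    obtain ⟨⟨d, hd⟩, hd1⟩ := (Subgroup.ne_bot_iff_exists_ne_one).1 hQ.ne
    obtain ⟨l, hl⟩ := CommGroup.exists_apply_ne_one_of_hasEnoughRootsOfUnity D ℂ
      (a := ⟨d, hd⟩) hd1
    exact ⟨l, _, hl⟩
  have hl1 : l ≠ 1 := by
    rintro rfl
    exact hl rfl
  let f : N →* D := π.subgroupComap D
  have hf : Function.Surjective f := π.subgroupComap_surjective_of_surjective D hπ
  let lt : N →* ℂˣ := l.comp f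
  -- the inertia
  have hinert : ∀ g : G, (∀ n : N, lt ⟨g * n * g⁻¹, hNn.conj_mem n n.2 g⟩ = lt n) → g ∈ N := by
    intro g hg
    by_contra hgN
    have hgD : π g ∉ D := hgN
    apply hl1
    refine hQ.hom_trivial hab hnc hgD l ?_
    intro d
    obtain ⟨n, rfl⟩ := hf d
    have := hg n
    simp only [lt, MonoidHom.comp_apply] at this
    rw [← this]
    congr 1
  -- Claim A
  have hmb : N.index ≤ b := by
    have hα : IsIrrCharacter N (fun n => ((lt n : ℂˣ) : ℂ)) :=
      Cfsg.Agent.Lib.Char.LinearChars.isIrr_of_hom lt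
    have := index_mul_le h N hα (fun g hg => hinert g fun n => by
      apply Units.ext
      exact congrFun hg n) (a := 1) (by simp)
    simpa using this
  -- Claim B
  have hvan : ∀ χ : G → ℂ, IsIrrCharacter G χ → χ 1 = b → IsIrrCharacter N (fun x : N => χ x) →
      ∀ x ∈ N, x ∉ M → χ x = 0 := by
    intro χ hχ hb hN x₀ hx₀ hx₀M
    by_contra hne
    have hχcl : IsClassFunction G χ :=
      isClassFunction_of_isCharacter (isCharacter_of_isIrrCharacter hχ)
    have hα : IsIrrCharacter N (fun n : N => ((lt n : ℂˣ) : ℂ) * χ n) :=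
      Cfsg.Agent.Lib.Char.GlaubCyclic.isIrr_lin_mul lt hN
    have hα1 : (fun n : N => ((lt n : ℂˣ) : ℂ) * χ n) 1 = b := by
      simp [hb]
    obtain ⟨g, hg, hgN⟩ : ∃ g : G, conjFun N g (fun n : N => ((lt n : ℂˣ) : ℂ) * χ n) =
        (fun n : N => ((lt n : ℂˣ) : ℂ) * χ n) ∧ g ∉ N := by
      by_contra hcon
      push Not at hcon
      have h2 := index_mul_le h N hα hcon hα1
      have hb0 : 0 < b := by
        obtain ⟨c, hc0, hc⟩ := irr_degree_pos hχ
        rw [hb] at hc
        have : b = c := by exact_mod_cast hc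
        omega
      nlinarith
    have hgD : π g ∉ D := hgN
    -- invariance on the support
    have hsupp : ∀ n : N, χ n ≠ 0 → lt ⟨g * n * g⁻¹, hNn.conj_mem n n.2 g⟩ = lt n := by
      intro n hn
      have h3 := congrFun hg n
      rw [conjFun_apply] at h3
      have h4 : χ (g * n * g⁻¹) = χ n := hχcl n g
      simp only [h4] at h3
      apply Units.ext
      exact mul_right_cancel₀ hn h3
    -- the closure of the support
    let S : Set (G ⧸ M) := {y | ∃ n : N, π n = y ∧ χ n ≠ 0}
    let X := Subgroup.closure S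
    have hXn : X.Normal := by
      constructor
      intro x hx y
      obtain ⟨w, rfl⟩ := hπ y
      induction hx using Subgroup.closure_induction with
      | mem x hx =>
        obtain ⟨n, rfl, hn⟩ := hx
        refine Subgroup.subset_closure ⟨⟨w * n * w⁻¹, hNn.conj_mem n n.2 w⟩, ?_, ?_⟩
        · simp
        · have : χ (w * n * w⁻¹) = χ n := hχcl n w
          simpa [this] using hn
      | one => simpa using X.one_mem
      | mul a b _ _ ha hb =>
        have : π w * (a * b) * (π w)⁻¹ = (π w * a * (π w)⁻¹) * (π w * b * (π w)⁻¹) := by group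
        rw [this]
        exact X.mul_mem ha hb
      | inv a _ ha =>
        have : π w * a⁻¹ * (π w)⁻¹ = (π w * a * (π w)⁻¹)⁻¹ := by group
        rw [this]
        exact X.inv_mem ha
    have hXne : X ≠ ⊥ := by
      intro h0
      have h1 : π x₀ ∈ X := Subgroup.subset_closure ⟨⟨x₀, hx₀⟩, rfl, hne⟩
      rw [h0] at h1
      exact hx₀M ((QuotientGroup.eq_one_iff x₀).1 (Subgroup.mem_bot.1 h1))
    have hDX : D ≤ X := hQ.le X hXn hXne
    -- the invariance subgroup
    have hE : ∀ y ∈ X, ∃ hy : y ∈ D, l ⟨π g * y * (π g)⁻¹, hDn.conj_mem y hy (π g)⟩ = l ⟨y, hy⟩ := by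
      intro y hy
      induction hy using Subgroup.closure_induction with
      | mem y hy =>
        obtain ⟨n, rfl, hn⟩ := hy
        refine ⟨(n : N).2, ?_⟩
        have := hsupp n hn
        simp only [lt, MonoidHom.comp_apply] at this
        rw [show l ⟨π n, (n : N).2⟩ = l (f n) from rfl, ← this]
        congr 1
      | one =>
        refine ⟨D.one_mem, ?_⟩
        have h5 : (⟨π g * 1 * (π g)⁻¹, hDn.conj_mem 1 D.one_mem (π g)⟩ : D) = 1 := by
          apply Subtype.ext
          simp
        rw [h5]
        exact (map_one l).trans (map_one l).symm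
      | mul a c _ _ ha hc =>
        obtain ⟨h1, h2⟩ := ha
        obtain ⟨h3, h4⟩ := hc
        refine ⟨D.mul_mem h1 h3, ?_⟩
        have h5 : (⟨π g * (a * c) * (π g)⁻¹, hDn.conj_mem _ (D.mul_mem h1 h3) (π g)⟩ : D) =
            ⟨π g * a * (π g)⁻¹, hDn.conj_mem a h1 (π g)⟩ * ⟨π g * c * (π g)⁻¹, hDn.conj_mem c h3 (π g)⟩ := by
          apply Subtype.ext
          simp only [Subgroup.coe_mul]
          group
        rw [h5, map_mul, h2, h4, ← map_mul]
        rfl
      | inv a _ ha =>
        obtain ⟨h1, h2⟩ := ha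
        refine ⟨D.inv_mem h1, ?_⟩
        have h5 : (⟨π g * a⁻¹ * (π g)⁻¹, hDn.conj_mem _ (D.inv_mem h1) (π g)⟩ : D) =
            (⟨π g * a * (π g)⁻¹, hDn.conj_mem a h1 (π g)⟩ : D)⁻¹ := by
          apply Subtype.ext
          simp only [Subgroup.coe_inv]
          group
        rw [h5, map_inv, h2, ← map_inv]
        rfl
    apply hl1
    refine hQ.hom_trivial hab hnc hgD l fun d => ?_
    obtain ⟨h5, h6⟩ := hE d (hDX d.2)
    exact h6
  -- the two cases
  by_cases htop : ∃ χ₀ : G → ℂ, IsIrrCharacter G χ₀ ∧ χ₀ 1 = b ∧ IsIrrCharacter N (fun x : N => χ₀ x)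
  · obtain ⟨χ₀, hχ₀, hb₀, hN₀⟩ := htop
    obtain ⟨q, hq, hqdvd, K, hKD, hKne, hKcard⟩ := hQ.prime_structure hab hnc
    let H := K.comap π
    have := Fintype.ofFinite H
    have hMH : M ≤ H := by
      intro w hw
      rw [Subgroup.mem_comap]
      have : π w = 1 := (QuotientGroup.eq_one_iff w).2 hw
      rw [this]
      exact K.one_mem
    have hHN : H ≤ N := Subgroup.comap_mono hKD
    have hHne : H ≠ N := by
      intro h1
      apply hKne
      have := Subgroup.map_comap_eq_self_of_surjective hπ K
      rw [← this, show K.comap π = H from rfl, h1]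
      exact Subgroup.map_comap_eq_self_of_surjective hπ D
    have hHi : H.index = N.index * q := by
      have h1 : H.index = K.index := Subgroup.index_comap_of_surjective _ hπ
      rw [h1, hNi]
      have h2 := Subgroup.index_mul_card K
      have h3 := Subgroup.index_mul_card D
      have hKpos : 0 < Nat.card K := Nat.card_pos
      have h4 : K.index * Nat.card K = D.index * q * Nat.card K := by
        rw [h2, ← h3, show Nat.card D = q * Nat.card K from hKcard]
        ring
      exact Nat.eq_of_mul_eq_mul_right hKpos h4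
    -- `q ≤ b`
    have hqb : q ≤ b := by
      let M' := M.subgroupOf N
      haveI hM'n : M'.Normal := inferInstance
      have := Fintype.ofFinite M'
      have hker : MonoidHom.ker f = M' := by
        ext n
        rw [MonoidHom.mem_ker, Subgroup.mem_subgroupOf]
        constructor
        · intro h1
          have h2 : π n = 1 := congrArg Subtype.val h1
          exact (QuotientGroup.eq_one_iff (n : G)).1 h2
        · intro h1
          apply Subtype.ext
          exact (QuotientGroup.eq_one_iff (n : G)).2 h1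
      have hidx : M'.index = Nat.card D := by
        rw [← hker, Subgroup.index_ker, MonoidHom.range_eq_top.2 hf]
        simp
      have hres : IsCharacter M' (fun y : M' => χ₀ ((y : N) : G)) :=
        isCharacter_restrict (isCharacter_of_isIrrCharacter hN₀) M'
      obtain ⟨φ, hφ, hφne⟩ := exists_irr_constituent hres (by
        have := irr_apply_one_ne_zero hN₀
        simpa using this)
      obtain ⟨e, he1, he2⟩ := Cfsg.Agent.Lib.Char.DegreeDvd.exists_degree_ratio M' hN₀ hφ hφne
      obtain ⟨a, ha0, ha⟩ := irr_degree_pos hφ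
      have hbe : b = e * a := by
        have h1 : ((b : ℕ) : ℂ) = e * a := by
          rw [← ha, ← he1]
          simpa using hb₀.symm
        exact_mod_cast h1
      have he1' : e ≠ 1 := by
        rintro rfl
        have hab' : a = b := by rw [hbe]; simp
        have h1 := degree_le_of_over M' (isCharacter_of_isIrrCharacter hN₀) hφ hφne ha
          (c := b) (by simpa using hb₀)
        have h2 := h1.2 hab'
        have h3 : (fun y : M' => χ₀ ((y : N) : G)) = φ := funext h2
        have h4 : IsIrrCharacter M' (fun y : M' => χ₀ ((y : N) : G)) := by rw [h3]; exact hφ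
        have h5 : IsIrrCharacter M (fun y : M => χ₀ y) :=
          isIrrCharacter_comp_surjective h4
            ((Subgroup.subgroupOfEquivOfLe hMN).symm : M ≃* M').toMonoidHom
            ((Subgroup.subgroupOfEquivOfLe hMN).symm : M ≃* M').surjective
        have hMNne : M ≠ N := by
          intro h6
          apply hQ.ne
          rw [eq_bot_iff]
          intro y hy
          obtain ⟨w, rfl⟩ := hπ y
          have h7 : w ∈ N := hy
          rw [← h6] at h7
          exact Subgroup.mem_bot.2 ((QuotientGroup.eq_one_iff w).2 h7)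
        exact not_irr_of_vanish le_rfl hMN hMNne hN₀ (hvan χ₀ hχ₀ hb₀ hN₀) h5
      have h1 := hqdvd e (by rw [← hidx]; exact he2) he1'
      have hae : e ≤ b := by
        rw [hbe]
        exact Nat.le_mul_of_pos_right e ha0
      omega
    refine ⟨H, ?_, ?_⟩
    · rw [hHi, sq]
      exact Nat.mul_le_mul hmb hqb
    · refine degLE_pred h H fun χ hχ hb hHi' => ?_
      have hN' : IsIrrCharacter N (fun x : N => χ x) := by
        refine isIrr_of_comp (Subgroup.inclusion hHN) (isCharacter_restrict
          (isCharacter_of_isIrrCharacter hχ) N) ?_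
        exact hHi'
      exact not_irr_of_vanish hMH hHN hHne hN' (hvan χ hχ hb hN') hHi'
  · push Not at htop
    refine ⟨N, ?_, ?_⟩
    · have hb1 : 1 ≤ b := by omega
      nlinarith
    · refine degLE_pred h N fun χ hχ hb => ?_
      exact htop χ hχ hb

/-- The third case: the commutator subgroup of the quotient is nonabelian. -/
theorem nonab_case [Finite G] {b : ℕ} (h : DegLE G b) (M : Subgroup G) [hMn : M.Normal]
    (hQ : Mono (G ⧸ M))
    (hnab : ¬ ∀ x ∈ commutator (G ⧸ M), ∀ y ∈ commutator (G ⧸ M), x * y = y * x) :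
    (∃ H : Subgroup G, H.index ≤ b ^ 2 ∧ DegLE H (b - 1)) ∨
      (M.index ≤ b ^ 4 ∧ DegLE M (b / 2) ∧ 5 ≤ b) := by
  classical
  have := Fintype.ofFinite G
  have := Fintype.ofFinite (G ⧸ M)
  have := Fintype.ofFinite M
  have h5 := hQ.five_le hnab (h.quot M)
  haveI := hQ.nontrivial
  obtain ⟨x, hx1, hxi⟩ := exists_small_class (h.quot M)
  let π := QuotientGroup.mk' M
  have hπ : Function.Surjective π := QuotientGroup.mk'_surjective M
  let H : Subgroup G := (Subgroup.centralizer ({x} : Set (G ⧸ M))).comap π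
  have := Fintype.ofFinite H
  have hHi : H.index ≤ b ^ 2 := by
    rw [Subgroup.index_comap_of_surjective _ hπ]
    exact hxi
  by_cases htop : ∃ χ : G → ℂ, IsIrrCharacter G χ ∧ χ 1 = b ∧ IsIrrCharacter H (fun y : H => χ y)
  · right
    obtain ⟨χ, hχ, hb, hχH⟩ := htop
    refine ⟨?_, degLE_half h M hQ.ne, h5⟩
    have hMH : M ≤ H := by
      intro w hw
      rw [Subgroup.mem_comap]
      have : π w = 1 := (QuotientGroup.eq_one_iff w).2 hw
      rw [this]
      exact Subgroup.one_mem _
    have hv : ∀ y ∈ H, y ∉ M → χ y = 0 := by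
      intro y hy hyM
      by_contra hne
      apply hyM
      have h1 : π y ∈ (Subgroup.centralizer ({x} : Set (G ⧸ M))).normalCore := by
        intro g
        obtain ⟨w, rfl⟩ := hπ g
        have h2 := conj_mem_of_ne_zero h H hχ hb hχH ⟨y, hy⟩ hne w⁻¹
        have h3 : π (w⁻¹⁻¹ * y * w⁻¹) ∈ Subgroup.centralizer ({x} : Set (G ⧸ M)) := h2
        simpa using h3
      rw [hQ.core_eq_bot hnab hx1] at h1
      exact (QuotientGroup.eq_one_iff y).1 (Subgroup.mem_bot.1 h1)
    have h2 := card_le_of_vanish hMH (isCharacter_of_isIrrCharacter hχ) hb hχH hv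
    have e1 := Subgroup.index_mul_card M
    have e2 := Subgroup.index_mul_card H
    have hM0 : 0 < Nat.card M := Nat.card_pos
    have h3 : M.index * Nat.card M ≤ b ^ 4 * Nat.card M := by
      calc M.index * Nat.card M = H.index * Nat.card H := by rw [e1, e2]
        _ ≤ b ^ 2 * (Nat.card M * b ^ 2) := Nat.mul_le_mul hHi h2
        _ = b ^ 4 * Nat.card M := by ring
    exact Nat.le_of_mul_le_mul_right h3 hM0
  · left
    push Not at htop
    exact ⟨H, hHi, degLE_pred h H fun χ hχ hb => htop χ hχ hb⟩

theorem num_aux (c : ℕ) (hc : 5 ≤ c) : c ^ 2 * (c / 2).factorial ≤ c.factorial := by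
  obtain ⟨k, rfl⟩ : ∃ k, c = k + 3 := ⟨c - 3, by omega⟩
  have h1 : (k + 3).factorial = (k + 3) * ((k + 2) * ((k + 1) * k.factorial)) := by
    simp only [Nat.factorial_succ]
  have h2 : ((k + 3) / 2).factorial ≤ k.factorial := Nat.factorial_le (by omega)
  rw [h1]
  have h3 : k + 3 ≤ (k + 2) * (k + 1) := by nlinarith
  calc (k + 3) ^ 2 * ((k + 3) / 2).factorial ≤ (k + 3) ^ 2 * k.factorial := by gcongr
    _ = (k + 3) * (k + 3) * k.factorial := by ring
    _ ≤ (k + 3) * ((k + 2) * (k + 1)) * k.factorial := by gcongr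
    _ = _ := by ring

/-- **Isaacs-Passman bound.** -/
theorem main_bound : ∀ (n : ℕ) (G : Type u) [Group G] [Finite G], Nat.card G = n →
    ∀ b : ℕ, DegLE G b →
    ∃ A : Subgroup G, (∀ x ∈ A, ∀ y ∈ A, x * y = y * x) ∧ A.index ≤ b.factorial ^ 2 := by
  intro n
  induction n using Nat.strong_induction_on with
  | _ n ih =>
    intro G _ _ hn b
    induction b with
    | zero =>
      intro h
      exfalso
      classical
      have := Fintype.ofFinite G
      have h1 := h _ (Cfsg.Agent.Lib.Char.Burnside2.isIrrCharacter_one (G := G)) 1 (by simp)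
      omega
    | succ b ihb =>
      intro h
      by_cases hG : commutator G = ⊥
      · refine ⟨⊤, ?_, ?_⟩
        · intro x _ y _
          have h1 : ⁅x, y⁆ ∈ commutator G := by
            rw [commutator_def]
            exact Subgroup.commutator_mem_commutator (Subgroup.mem_top x) (Subgroup.mem_top y)
          rw [hG] at h1
          exact commutatorElement_eq_one_iff_mul_comm.1 (Subgroup.mem_bot.1 h1)
        · rw [Subgroup.index_top]
          exact Nat.one_le_pow _ _ (Nat.factorial_pos _)
      by_cases htop : ∃ χ : G → ℂ, IsIrrCharacter G χ ∧ χ 1 = ((b + 1 : ℕ) : ℂ)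
      · obtain ⟨χ₀, hχ₀, hb₀⟩ := htop
        -- the reduction step through a subgroup
        have hstep : ∀ (H : Subgroup G), H ≠ ⊤ → ∀ (c i : ℕ), DegLE H c → H.index ≤ i →
            c.factorial ^ 2 * i ≤ (b + 1).factorial ^ 2 →
            ∃ A : Subgroup G, (∀ x ∈ A, ∀ y ∈ A, x * y = y * x) ∧
              A.index ≤ (b + 1).factorial ^ 2 := by
          intro H hH c i hc hi hnum
          have hcard : Nat.card H < n := by
            rw [← hn]
            have e := Subgroup.index_mul_card H
            have h1 : H.index ≠ 1 := fun h1 => hH (Subgroup.index_eq_one.1 h1)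
            have h2 : H.index ≠ 0 := Subgroup.index_ne_zero_of_finite
            have h3 : 0 < Nat.card H := Nat.card_pos
            rw [← e]
            have h4 : 2 ≤ H.index := by omega
            nlinarith
          obtain ⟨A₁, hA₁, hA₁i⟩ := ih _ hcard H rfl c hc
          refine ⟨A₁.map H.subtype, ?_, ?_⟩
          · rintro _ ⟨x, hx, rfl⟩ _ ⟨y, hy, rfl⟩
            have := hA₁ x hx y hy
            simpa using congrArg Subtype.val this
          · rw [Subgroup.index_map_subtype]
            exact (Nat.mul_le_mul hA₁i hi).trans hnum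
        have hstep2 : ∀ (H : Subgroup G), H.index ≤ (b + 1) ^ 2 → DegLE H (b + 1 - 1) →
            ∃ A : Subgroup G, (∀ x ∈ A, ∀ y ∈ A, x * y = y * x) ∧
              A.index ≤ (b + 1).factorial ^ 2 := by
          intro H hi hd
          refine hstep H ?_ b ((b + 1) ^ 2) hd hi ?_
          · rintro rfl
            have h1 : IsIrrCharacter (⊤ : Subgroup G) (fun x : (⊤ : Subgroup G) => χ₀ x) :=
              isIrrCharacter_comp_surjective hχ₀ (⊤ : Subgroup G).subtype (fun x =>
                ⟨⟨x, Subgroup.mem_top x⟩, rfl⟩)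
            have h2 := hd _ h1 (b + 1) hb₀
            omega
          · rw [Nat.factorial_succ]
            apply le_of_eq
            ring
        obtain ⟨M, hMn, hQ⟩ := exists_mono hG
        by_cases hc : commutator (G ⧸ M) ≤ Subgroup.center (G ⧸ M)
        · obtain ⟨H, hi, hd⟩ := central_case h M hQ hc
          exact hstep2 H hi hd
        by_cases hab : ∀ x ∈ commutator (G ⧸ M), ∀ y ∈ commutator (G ⧸ M), x * y = y * x
        · obtain ⟨H, hi, hd⟩ := frob_case h M hQ hab hc
          exact hstep2 H hi hd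
        rcases nonab_case h M hQ hab with ⟨H, hi, hd⟩ | ⟨hi, hd, h5⟩
        · exact hstep2 H hi hd
        · refine hstep M ?_ ((b + 1) / 2) ((b + 1) ^ 4) hd hi ?_
          · rintro rfl
            apply hQ.ne
            have : Subsingleton (G ⧸ (⊤ : Subgroup G)) := QuotientGroup.subsingleton_quotient_top
            exact Subsingleton.elim _ _
          · have h1 := num_aux (b + 1) h5
            calc ((b + 1) / 2).factorial ^ 2 * (b + 1) ^ 4
                = ((b + 1) ^ 2 * ((b + 1) / 2).factorial) ^ 2 := by ring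
              _ ≤ (b + 1).factorial ^ 2 := Nat.pow_le_pow_left h1 2
      · push Not at htop
        have hd : DegLE G b := by
          intro χ hχ m hm
          have h1 := h χ hχ m hm
          by_contra h2
          have h3 : m = b + 1 := by omega
          subst h3
          exact htop χ hχ hm
        obtain ⟨A, hA, hi⟩ := ihb hd
        exact ⟨A, hA, hi.trans (Nat.pow_le_pow_left (Nat.factorial_le (by omega)) 2)⟩

end Cfsg.Agent.Lib.Blocks.IPass
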